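import Mathlib.GroupTheory.GroupAction.Basic
import Mathlib.GroupTheory.GroupAction.Quotient
import Mathlib.Algebra.BigOperators.Group.Finset.Basic
import Mathlib.SetTheory.Cardinal.Finite

/-!
Fixed points summed over a coset of a normalized subgroup (owner: helper32).
-/

set_option autoImplicit false

namespace Cfsg.Agent.ChevGrp.Stein

variable {G X : Type*} [Group G] [MulAction G X]

/-- If `g` normalizes `Q`, the fixed points of the elements `xg` are counted by the orbits of `Q` stable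
under `g`. -/
theorem sum_fixed_coset [Finite X] (Q : Subgroup G) [Fintype Q] {g : G}
    (hg : g ∈ Subgroup.normalizer (Q : Set G)) {T : Type*} [Finite T] (φ : T → X)
    (hsurj : ∀ c, ∀ x ∈ Q, (x * g) • c = c → ∃ t, ∃ q ∈ Q, q • φ t = c)
    (hinj : ∀ t t', ∀ q ∈ Q, q • φ t = φ t' → t = t')
    (hstab : ∀ t, ∃ x ∈ Q, (x * g) • φ t = φ t) :
    ∑ x : Q, Nat.card (MulAction.fixedBy X ((x : G) * g)) = Nat.card Q * Nat.card T := by
  classical
  choose xt hxt hfix using hstab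
  let C := {c : X // ∃ x ∈ Q, (x * g) • c = c}
  choose tc qc hqc hc using fun c : C => hsurj c.1 c.2.choose c.2.choose_spec.1 c.2.choose_spec.2
  let xc : C → G := fun c => qc c * (xt (tc c) * (g * (qc c)⁻¹ * g⁻¹))
  have hxc : ∀ c, xc c ∈ Q := fun c => mul_mem (hqc c) (mul_mem (hxt _)
    ((Subgroup.mem_normalizer_iff.1 hg _).1 (inv_mem (hqc c))))
  have hxcfix : ∀ c : C, (xc c * g) • c.1 = c.1 := fun c => by
    have e : xc c * g = qc c * (xt (tc c) * g) * (qc c)⁻¹ := by simp [xc, mul_assoc]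
    rw [e]
    conv_lhs => rw [← hc c, ← mul_smul, inv_mul_cancel_right, mul_smul, hfix, hc c]
  have hmem : ∀ (t : T) (q : Q), ∃ x ∈ Q, (x * g) • ((q : G) • φ t) = (q : G) • φ t := fun t q => by
    refine ⟨(q : G) * (xt t * (g * (q : G)⁻¹ * g⁻¹)),
      mul_mem q.2 (mul_mem (hxt _) ((Subgroup.mem_normalizer_iff.1 hg _).1 (inv_mem q.2))), ?_⟩
    have e : (q : G) * (xt t * (g * (q : G)⁻¹ * g⁻¹)) * g = q * (xt t * g) * (q : G)⁻¹ := by simp [mul_assoc]
    rw [e, ← mul_smul, inv_mul_cancel_right, mul_smul, hfix]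
  let P := Σ x : Q, MulAction.fixedBy X ((x : G) * g)
  let cl : P → C := fun a => ⟨a.2.1, a.1.1, a.1.2, a.2.2⟩
  let e : P ≃ T × Q :=
    { toFun := fun a => (tc (cl a), ⟨(a.1 : G) * (xc (cl a))⁻¹ * qc (cl a),
        mul_mem (mul_mem a.1.2 (inv_mem (hxc _))) (hqc _)⟩)
      invFun := fun b => ⟨⟨(b.2 : G) * (qc ⟨(b.2 : G) • φ b.1, hmem b.1 b.2⟩)⁻¹ *
          xc ⟨(b.2 : G) • φ b.1, hmem b.1 b.2⟩,
          mul_mem (mul_mem b.2.2 (inv_mem (hqc _))) (hxc _)⟩, ⟨(b.2 : G) • φ b.1, by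
          rw [MulAction.mem_fixedBy]
          set c : C := ⟨(b.2 : G) • φ b.1, hmem b.1 b.2⟩
          have ht : tc c = b.1 := hinj _ _ ((b.2 : G)⁻¹ * qc c) (mul_mem (inv_mem b.2.2) (hqc _)) (by
            rw [mul_smul, hc c, inv_smul_smul])
          calc ((b.2 : G) * (qc c)⁻¹ * xc c * g) • c.1 = ((b.2 : G) * (qc c)⁻¹) • ((xc c * g) • c.1) :=
                (congrArg (· • c.1) (mul_assoc ((b.2 : G) * (qc c)⁻¹) (xc c) g)).trans (mul_smul _ _ _)
            _ = ((b.2 : G) * (qc c)⁻¹) • c.1 := by rw [hxcfix]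
            _ = ((b.2 : G) * (qc c)⁻¹) • (qc c • φ (tc c)) := by rw [hc c]
            _ = c.1 := by rw [← mul_smul, inv_mul_cancel_right, ht]⟩⟩
      left_inv := fun a => by
        obtain ⟨⟨x, hx⟩, ⟨c, hcx⟩⟩ := a
        set a : P := ⟨⟨x, hx⟩, ⟨c, hcx⟩⟩
        have hcc : (xc (cl a))⁻¹ • c = g • c := inv_smul_eq_iff.2 (by
          rw [← mul_smul]; exact (hxcfix (cl a)).symm)
        have e1 : (x * (xc (cl a))⁻¹ * qc (cl a)) • φ (tc (cl a)) = c := by
          rw [mul_smul, hc (cl a), mul_smul]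
          show x • ((xc (cl a))⁻¹ • c) = c
          rw [hcc, ← mul_smul]
          exact hcx
        refine Sigma.subtype_ext (Subtype.ext ?_) e1
        have ec : (⟨(x * (xc (cl a))⁻¹ * qc (cl a)) • φ (tc (cl a)),
            hmem (tc (cl a)) ⟨_, mul_mem (mul_mem hx (inv_mem (hxc _))) (hqc _)⟩⟩ : C) = cl a := Subtype.ext e1
        show x * (xc (cl a))⁻¹ * qc (cl a) * (qc ⟨_, _⟩)⁻¹ * xc ⟨_, _⟩ = x
        rw [ec]
        simp [mul_assoc]
      right_inv := fun b => by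
        obtain ⟨t, q⟩ := b
        set c : C := ⟨(q : G) • φ t, hmem t q⟩
        have ht : tc c = t := hinj _ _ ((q : G)⁻¹ * qc c) (mul_mem (inv_mem q.2) (hqc _)) (by
          rw [mul_smul, hc c, inv_smul_smul])
        refine Prod.ext ht (Subtype.ext ?_)
        show (q : G) * (qc c)⁻¹ * xc c * (xc c)⁻¹ * qc c = q
        simp [mul_assoc] }
  have h := Nat.card_congr e
  rw [Nat.card_sigma, Nat.card_prod, mul_comm] at h
  convert h using 1

/-- The version with the stable orbits as index set. -/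
theorem exists_sum_fixed_coset [Finite X] (Q : Subgroup G) [Fintype Q] {g : G}
    (hg : g ∈ Subgroup.normalizer (Q : Set G)) :
    ∃ n : ℕ, ∑ x : Q, Nat.card (MulAction.fixedBy X ((x : G) * g)) = Nat.card Q * n := by
  classical
  let T := {o : Quotient (MulAction.orbitRel Q X) // ∃ x ∈ Q, (x * g) • o.out = o.out}
  refine ⟨Nat.card T, sum_fixed_coset Q hg (fun o : T => o.1.out) (fun c x hx hc => ?_) (fun o o' q hq h => ?_)
    fun o => o.2⟩
  · set o : Quotient (MulAction.orbitRel Q X) := Quotient.mk'' c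
    have ho : MulAction.orbitRel Q X o.out c := Quotient.exact' (Quotient.out_eq o)
    obtain ⟨q, hq⟩ := ho
    change (q : G) • c = o.out at hq
    refine ⟨⟨o, (q : G) * x * (g * (q : G)⁻¹ * g⁻¹), mul_mem (mul_mem q.2 hx)
      ((Subgroup.mem_normalizer_iff.1 hg _).1 (inv_mem q.2)), ?_⟩, (q : G)⁻¹, inv_mem q.2, ?_⟩
    · have e : (q : G) * x * (g * (q : G)⁻¹ * g⁻¹) * g = q * (x * g) * (q : G)⁻¹ := by simp [mul_assoc]
      rw [e, ← hq, ← mul_smul, inv_mul_cancel_right, mul_smul, hc]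
    · show (q : G)⁻¹ • o.out = c
      rw [← hq, inv_smul_smul]
  · refine Subtype.ext ?_
    change q • o.1.out = o'.1.out at h
    rw [← Quotient.out_eq o.1, ← Quotient.out_eq o'.1]
    exact (Quotient.sound' (s₁ := MulAction.orbitRel Q X) ⟨⟨q, hq⟩, h⟩).symm

end Cfsg.Agent.ChevGrp.Stein
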