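import Cfsg.Agent.ChevGrp.Stein.Comb
import Cfsg.Agent.ChevGrp.Stein.Orbits
import Cfsg.Agent.ChevGrp.UnipCount

/-!
The alternating sum of permutation characters summed over a coset `U_J g`, `g` in no proper parabolic
subgroup of `P_J` (owner: helper32).
-/

set_option autoImplicit false

namespace Cfsg.Agent.ChevGrp.Stein

open Cfsg.Lie Cfsg.Agent.ChevSteinberg

variable {D : ChevalleyDatum} {F : Type*} [Field F] {G : Type*} [Group G] (S : Sys D F G) {len : ℕ → ℕ}

/-- The alternating sum of the fixed point numbers on the cosets of the standard parabolic subgroups. -/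
noncomputable def stZ (g : G) : ℤ :=
  ∑ K ∈ (Finset.range D.rank).powerset,
    (-1 : ℤ) ^ K.card * (Nat.card (MulAction.fixedBy (G ⧸ PL S K.toList) g) : ℤ)

theorem stZ_conj (x g : G) : stZ S (x * g * x⁻¹) = stZ S g := by
  refine Finset.sum_congr rfl fun K _ => ?_
  congr 2
  refine Nat.card_congr (Equiv.subtypeEquiv (MulAction.toPerm x⁻¹) fun c => ?_)
  show (x * g * x⁻¹) • c = c ↔ g • (x⁻¹ • c) = x⁻¹ • c
  rw [eq_inv_smul_iff, ← mul_smul, ← mul_smul]

theorem minL_toList_iff (hR : RootTable D len) {K : Finset ℕ} (hK : ∀ k ∈ K, k < D.rank)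
    (f : Fin D.nroots → Fin D.nroots) : K ⊆ ascL hR f ↔ MinL D K.toList (wRep hR f) := by
  constructor
  · intro h i hi
    exact (mem_ascL hR i).1 (h (Finset.mem_toList.1 hi))
  · intro h k hk
    exact (mem_ascL hR ⟨k, hK k hk⟩).2 (h ⟨k, hK k hk⟩ (Finset.mem_toList.2 hk))

/-- A representative of the double coset, minimal on both sides. -/
theorem exists_double_rep (hS : Rules D F) (hR : RootTable D len) (K J : List ℕ) (w : List (Fin D.rank)) :
    ∃ f ∈ wAll hR, MinL D K (wRep hR f) ∧ MinR D J (wRep hR f) ∧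
      ∃ q ∈ PL S K, ∃ p ∈ PL S J, S.nW w = q * S.nW (wRep hR f) * p := by
  obtain ⟨d, -, hdL, hdR, hzd, -⟩ := exists_dmin hS hR K J w
  have e := sameAct_wRep hR d
  refine ⟨hR.actF d, actF_mem_wAll hR d, e.symm.minL hR hdL, e.symm.minR hR hdR, ?_⟩
  obtain ⟨u, v, hu, hv, h⟩ := DRel.symm hR hzd
  obtain ⟨k, hk, ek⟩ := S.nW_congr hS hR (v := w) (w := u ++ d ++ v) h
  obtain ⟨k', hk', ek'⟩ := S.nW_congr hS hR e.symm
  rw [ek, Sys.nW_append, Sys.nW_append]
  obtain ⟨k1, hk1, e1⟩ : ∃ k1 ∈ S.Hbar, S.nW d = k1 * S.nW (wRep hR (hR.actF d)) := ⟨k', hk', ek'⟩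
  refine ⟨k * S.nW u * k1, mul_mem (mul_mem (Bbar_le_PL S K (S.Hbar_le_Bbar hk)) (nW_mem_PL S hu))
    (Bbar_le_PL S K (S.Hbar_le_Bbar hk1)), S.nW v, nW_mem_PL S hv, ?_⟩
  rw [e1]
  simp [mul_assoc]

theorem eq_of_double (hS : Rules D F) (hR : RootTable D len) {K J : List ℕ}
    {f g : Fin D.nroots → Fin D.nroots} (hf : f ∈ wAll hR) (hg : g ∈ wAll hR)
    (hfL : MinL D K (wRep hR f)) (hfR : MinR D J (wRep hR f)) (hgL : MinL D K (wRep hR g))
    (hgR : MinR D J (wRep hR g)) {q p : G} (hq : q ∈ PL S K) (hp : p ∈ PL S J)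
    (e : S.nW (wRep hR g) = q * S.nW (wRep hR f) * p) : f = g := by
  refine eq_of_sameAct hR hf hg (dmin_eq hS hR (drel_of_mem S hS hR hgR hq ?_) hfL hfR hgL hgR)
  rw [e]
  simpa [mul_assoc] using hp

theorem nI_mem_conj (hS : Rules D F) (hR : RootTable D len) {K : List ℕ} {d : List (Fin D.rank)}
    {j : Fin D.rank} (h : D.InRootSub {k | k ∈ K} (act D d (D.simple j))) :
    S.nW d * S.nI j * (S.nW d)⁻¹ ∈ PL S K := by
  have hp := hR.simple_lt j j.2
  have hneg : D.InRootSub {k | k ∈ K} (act D d (D.neg (D.simple j))) := by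
    rw [hR.act_neg d hp]
    exact (hR.inRootSub_iff _ (hR.neg_lt _ h.1)).2
      (by rw [hR.deg_neg _ h.1, (hR.inRootSub_iff _ h.1).1 h, neg_zero])
  obtain ⟨a, -, hda⟩ := S.conjP_nW hS hR d
  have hx : ∀ r < D.nroots, D.InRootSub {k | k ∈ K} (act D d r) → ∀ t,
      S.nW d * S.x r t * (S.nW d)⁻¹ ∈ PL S K := fun r hr hK t => by
    rw [hda r hr]
    exact S.x_mem_PJ hS hR _ hK _
  show S.nW d * (S.x (D.simple j) _ * S.x (D.neg (D.simple j)) _ * S.x (D.simple j) _) * (S.nW d)⁻¹ ∈ PL S K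
  rw [show ∀ n a b c : G, n * (a * b * c) * n⁻¹ = (n * a * n⁻¹) * (n * b * n⁻¹) * (n * c * n⁻¹) from
    fun n a b c => by simp [mul_assoc]]
  exact mul_mem (mul_mem (hx _ hp h _) (hx _ (hR.neg_lt _ hp) hneg _)) (hx _ hp h _)

theorem inRootSub_of_conj (hS : Rules D F) (hR : RootTable D len) {K J : List ℕ} {d : List (Fin D.rank)}
    {j : Fin D.rank} {u : G} (hu : u ∈ S.UJ {k | k ∈ J}) (hj : j.val ∈ J)
    (h : S.nW d * (u * S.nI j) * (S.nW d)⁻¹ ∈ PL S K) :
    D.InRootSub {k | k ∈ K} (act D d (D.simple j)) := by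
  have hn : S.nI j ∈ S.PJ {k | k ∈ J} := Subgroup.mem_sup_right (Subgroup.subset_closure ⟨j, hj, rfl⟩)
  have hu' : (S.nI j)⁻¹ * u * S.nI j ∈ S.Bbar := by
    refine S.Ubar_le_Bbar (S.US_mono (T := {r | D.IsPosRoot r ∧ ¬ D.InRootSub {k | k ∈ J} r})
      (fun r h => h.1) ?_)
    have := (Subgroup.mem_normalizer_iff.1 (S.PJ_le_normalizer hS hR _ (inv_mem hn)) u).1 hu
    rw [inv_inv] at this
    exact this
  obtain ⟨y, hy, c, hc, c', hc', ez⟩ := mem_PL S hS hR h
  obtain ⟨y', hy', hcell⟩ := prod_step S hS hR y hy d hc'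
  have e1 : S.nW (d ++ [j]) * ((S.nI j)⁻¹ * u * S.nI j) = c * (S.nW y * c' * S.nW d) := by
    calc S.nW (d ++ [j]) * ((S.nI j)⁻¹ * u * S.nI j) = S.nW d * (u * S.nI j) := by
          rw [Sys.nW_append, Sys.nW_cons, Sys.nW_nil]; simp [mul_assoc]
      _ = (S.nW d * (u * S.nI j) * (S.nW d)⁻¹) * S.nW d := by simp [mul_assoc]
      _ = _ := by rw [ez]; simp [mul_assoc]
  have h1 : InCell S (S.nW (d ++ [j]) * ((S.nI j)⁻¹ * u * S.nI j)) (d ++ [j]) :=
    (inCell_self S _).mul_right S hu'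
  rw [e1] at h1
  have hact := inCell_unique S hS hR (hcell.mul_left S hc) h1
  have hp := hR.simple_lt j j.2
  have hlt := hR.act_lt d hp
  have h2 := hact _ hp
  rw [act_append, act_append, act_singleton, hR.reflect_simple j.2, hR.act_neg d hp] at h2
  have h3 := hR.outJ_act (K := {k | k ∈ K}) (w := y') hy' hlt
  rw [h2, hR.deg_neg _ hlt] at h3
  exact (hR.inRootSub_iff _ hlt).2 (by omega)

/-- A subgroup between `B` and `P_J` missing `n_j` lies in the parabolic subgroup without `j`. -/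
theorem le_PL_filter (hS : Rules D F) (hR : RootTable D len) (hG : S.Gbar = ⊤) {J : List ℕ} {R : Subgroup G}
    (hB : S.Bbar ≤ R) (hRJ : R ≤ PL S J) {j : Fin D.rank} (hj : S.nI j ∉ R) :
    R ≤ PL S (J.filter fun k => decide (k ≠ j.val)) := by
  intro x hx
  obtain ⟨b, hb, w, hw, v, hv, rfl⟩ := S.mem_NF hS hR (hG.symm ▸ Subgroup.mem_top x)
  have hvB : v ∈ S.Bbar := S.Ubar_le_Bbar (S.US_mono (fun r h => h.1) hv)
  have hwR : S.nW w ∈ R := by
    have := mul_mem (mul_mem (inv_mem (hB hb)) hx) (inv_mem (hB hvB))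
    simpa [mul_assoc] using this
  refine mul_mem (mul_mem (Bbar_le_PL S _ hb) (nW_mem_PL S fun i hi => ?_)) (Bbar_le_PL S _ hvB)
  have hiR := S.letters_mem hS hR hB hw hwR i hi
  refine List.mem_filter.2 ⟨S.mem_letters_of_nI_mem hS hR (J := {k | k ∈ J}) (hRJ hiR), ?_⟩
  exact decide_eq_true fun e => hj (Fin.ext e ▸ hiR)

/-- `g` lies in no proper parabolic subgroup of `P_J`. -/
def Ell (J : List ℕ) (g : G) : Prop :=
  ∀ x ∈ PL S J, ∀ j : Fin D.rank, j.val ∈ J → x * g * x⁻¹ ∉ PL S (J.filter fun k => decide (k ≠ j.val))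

theorem fixed_top {G : Type*} [Group G] {P Q Q' : Subgroup G} (hP : P = ⊤) (hQ : Q' = Q) (u : P) :
    Nat.card (MulAction.fixedBy (G ⧸ Q') (u : G)) =
      Nat.card (MulAction.fixedBy (↥P ⧸ Q.subgroupOf P) u) := by
  subst hQ
  let ψ : ↥P ⧸ Q'.subgroupOf P → G ⧸ Q' := Quotient.map' (fun x => (x : G)) fun a b hab => by
    rw [QuotientGroup.leftRel_apply] at hab ⊢
    exact hab
  have hψ : Function.Bijective ψ := by
    constructor
    · intro a b
      induction a using QuotientGroup.induction_on with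
      | H a =>
        induction b using QuotientGroup.induction_on with
        | H b => exact fun h => QuotientGroup.eq.2 (QuotientGroup.eq.1 h : _ ∈ Q')
    · intro c
      induction c using QuotientGroup.induction_on with
      | H c => exact ⟨QuotientGroup.mk ⟨c, hP.symm ▸ Subgroup.mem_top c⟩, rfl⟩
  refine (Nat.card_congr (Equiv.subtypeEquiv (Equiv.ofBijective ψ hψ) fun c => ?_)).symm
  induction c using QuotientGroup.induction_on with
  | H c =>
    simp only [MulAction.mem_fixedBy, Equiv.ofBijective_apply]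
    exact ⟨fun e => congrArg ψ e, fun e => hψ.1 e⟩

section Coset

variable [Finite G]

theorem sum_fixed_PL (hS : Rules D F) (hR : RootTable D len) (hG : S.Gbar = ⊤) {J : List ℕ} {g : G}
    (hg : g ∈ PL S J) (hell : Ell S J g) {K : Finset ℕ} (hK : ∀ k ∈ K, k < D.rank)
    [Fintype (S.UJ {k | k ∈ J})] :
    ∑ x : S.UJ {k | k ∈ J}, Nat.card (MulAction.fixedBy (G ⧸ PL S K.toList) ((x : G) * g)) =
      Nat.card (S.UJ {k | k ∈ J}) * (goodSet hR J K).card := by
  classical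
  have hset : {k | k ∈ K.toList} = (K : Set ℕ) := Set.ext fun k => Finset.mem_toList
  have hnorm := S.PJ_le_normalizer hS hR {k | k ∈ J}
  have hQP : (S.UJ {k | k ∈ J}) ≤ PL S J := fun z hz => Bbar_le_PL S J (S.Ubar_le_Bbar (S.US_mono (fun r h => h.1) hz))
  let φ : ↥(goodSet hR J K) → G ⧸ PL S K.toList := fun t => QuotientGroup.mk (S.nW (wRep hR t.1))⁻¹
  have hgood : ∀ {f}, f ∈ goodSet hR J K → f ∈ wAll hR ∧ MinR D J (wRep hR f) ∧ MinL D K.toList (wRep hR f) ∧
      ∀ j : Fin D.rank, j.val ∈ J → D.InRootSub {k | k ∈ K.toList} (act D (wRep hR f) (D.simple j)) := by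
    intro f hf
    obtain ⟨h1, h2, h3, h4⟩ := Finset.mem_filter.1 hf
    refine ⟨h1, h2, (minL_toList_iff hR hK f).1 h3, fun j hj => ?_⟩
    rw [hset]
    exact (supJ_subset_iff hR J).1 h4 j hj
  -- the subgroup `U_J (P_J ∩ n_d⁻¹ P_K n_d)`
  let R : List (Fin D.rank) → Subgroup G := fun d =>
    (S.UJ {k | k ∈ J}) ⊔ (PL S J ⊓ (PL S K.toList).comap (MulAut.conj (S.nW d)).toMonoidHom)
  have hRmem : ∀ d z, z ∈ R d → ∃ u ∈ (S.UJ {k | k ∈ J}), ∃ a ∈ PL S J, S.nW d * a * (S.nW d)⁻¹ ∈ PL S K.toList ∧ u * a = z := by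
    intro d z hz
    have hz' : z ∈ ((R d : Subgroup G) : Set G) := hz
    rw [Subgroup.coe_mul_of_right_le_normalizer_left _ _ (inf_le_left.trans hnorm)] at hz'
    obtain ⟨u, hu, a, ha, rfl⟩ := hz'
    exact ⟨u, hu, a, ha.1, ha.2, rfl⟩
  have hBR : ∀ d, MinR D J d → S.Bbar ≤ R d := by
    intro d hd
    obtain ⟨a, -, hda⟩ := S.conjP_nW hS hR d
    refine sup_le ?_ ?_
    · rw [Sys.Ubar, Sys.US, Subgroup.closure_le]
      rintro _ ⟨r, hr, t, rfl⟩
      by_cases hrJ : D.InRootSub {k | k ∈ J} r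
      · refine Subgroup.mem_sup_right ⟨Bbar_le_PL S J (S.Ubar_le_Bbar (S.x_mem_US hr t)), ?_⟩
        show S.nW d * S.x r t * (S.nW d)⁻¹ ∈ PL S K.toList
        rw [hda r hr.1]
        exact Bbar_le_PL S K.toList (S.Ubar_le_Bbar (S.x_mem_US (T := posSet D) (pos_of_minR hR hd hr hrJ) _))
      · exact Subgroup.mem_sup_left (S.x_mem_US (T := {r | D.IsPosRoot r ∧ ¬ D.InRootSub {k | k ∈ J} r})
          ⟨hr, hrJ⟩ t)
    · refine fun h hh => Subgroup.mem_sup_right ⟨Bbar_le_PL S J (S.Hbar_le_Bbar hh), ?_⟩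
      exact Bbar_le_PL S K.toList (S.Hbar_le_Bbar (S.nW_conj_Hbar hS hR d hh))
  have hfull : ∀ f ∈ goodSet hR J K, PL S J ≤ R (wRep hR f) := by
    intro f hf
    obtain ⟨-, hfR, -, hj⟩ := hgood hf
    refine sup_le (hBR _ hfR) ?_
    rw [Subgroup.closure_le]
    rintro _ ⟨j, hjJ, rfl⟩
    exact Subgroup.mem_sup_right ⟨Subgroup.mem_sup_right (Subgroup.subset_closure ⟨j, hjJ, rfl⟩),
      nI_mem_conj S hS hR (hj j hjJ)⟩
  have hmain := sum_fixed_coset (S.UJ {k | k ∈ J}) (hnorm hg) φ (fun c x hx hc => ?_) (fun t t' q hq h => ?_) fun t => ?_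
  · rw [← Nat.card_eq_finsetCard]
    exact hmain
  · obtain ⟨y, rfl⟩ := QuotientGroup.mk_surjective c
    obtain ⟨b, hb, w, -, p, hp, ey⟩ := exists_minR_rep S hS hR J (g := y⁻¹) (hG.symm ▸ Subgroup.mem_top _)
    obtain ⟨f, hf, hfL, hfR, q, hq, p', hp', ew⟩ := exists_double_rep S hS hR K.toList J w
    set n := S.nW (wRep hR f)
    obtain ⟨π, hπ, hyπ⟩ : ∃ π ∈ PL S J, (QuotientGroup.mk y : G ⧸ PL S K.toList) = QuotientGroup.mk (π⁻¹ * n⁻¹) := by
      refine ⟨p' * p, mul_mem hp' hp, QuotientGroup.eq.2 ?_⟩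
      have e2 : y⁻¹ * ((p' * p)⁻¹ * n⁻¹) = b * q := by rw [ey, ew]; simp [n, mul_assoc]
      rw [e2]
      exact mul_mem (Bbar_le_PL S K.toList hb) hq
    rw [hyπ] at hc ⊢
    rw [MulAction.Quotient.smul_mk, smul_eq_mul, eq_comm, QuotientGroup.eq] at hc
    have ha : n * (π * (x * g) * π⁻¹) * n⁻¹ ∈ PL S K.toList := by simpa [mul_assoc] using hc
    have haR : π * g * π⁻¹ ∈ R (wRep hR f) := by
      have hxQ : π * x⁻¹ * π⁻¹ ∈ (S.UJ {k | k ∈ J}) := (Subgroup.mem_normalizer_iff.1 (hnorm hπ) _).1 (inv_mem hx)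
      have hπg : π * (x * g) * π⁻¹ ∈ PL S J :=
        (PL S J).mul_mem ((PL S J).mul_mem hπ ((PL S J).mul_mem (hQP hx) hg)) ((PL S J).inv_mem hπ)
      have h2 := mul_mem (Subgroup.mem_sup_left (T := PL S J ⊓ (PL S K.toList).comap (MulAut.conj n).toMonoidHom) hxQ)
        (Subgroup.mem_sup_right (S := (S.UJ {k | k ∈ J})) (T := PL S J ⊓ (PL S K.toList).comap (MulAut.conj n).toMonoidHom)
          (x := π * (x * g) * π⁻¹) (Subgroup.mem_inf.2 ⟨hπg, ha⟩))
      simpa [R, mul_assoc] using h2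
    have hall : ∀ j : Fin D.rank, j.val ∈ J → S.nI j ∈ R (wRep hR f) := fun j hj => by
      by_contra hno
      exact hell π hπ j hj (le_PL_filter S hS hR hG (hBR _ hfR)
        (sup_le hQP inf_le_left) hno haR)
    have hfg : f ∈ goodSet hR J K := by
      refine Finset.mem_filter.2 ⟨hf, hfR, (minL_toList_iff hR hK f).2 hfL, (supJ_subset_iff hR J).2 fun j hj => ?_⟩
      obtain ⟨u, hu, a, -, haL, eu⟩ := hRmem _ _ (hall j hj)
      rw [← hset]
      refine inRootSub_of_conj S hS hR (inv_mem hu) hj ?_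
      rw [← eu, inv_mul_cancel_left]
      exact haL
    obtain ⟨u, hu, a, haJ, haL, eu⟩ := hRmem _ _ (hfull f hfg (inv_mem hπ))
    refine ⟨⟨f, hfg⟩, u, hu, ?_⟩
    show u • (QuotientGroup.mk n⁻¹ : G ⧸ PL S K.toList) = QuotientGroup.mk (π⁻¹ * n⁻¹)
    rw [MulAction.Quotient.smul_mk, smul_eq_mul, QuotientGroup.eq, ← eu]
    simpa [n, mul_assoc] using haL
  · obtain ⟨ht, htR, htL, -⟩ := hgood t.2
    obtain ⟨ht', htR', htL', -⟩ := hgood t'.2
    simp only [φ, MulAction.Quotient.smul_mk, smul_eq_mul, QuotientGroup.eq] at h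
    refine Subtype.ext (eq_of_double S hS hR ht' ht htL' htR' htL htR
      (q := ((q * (S.nW (wRep hR t.1))⁻¹)⁻¹ * (S.nW (wRep hR t'.1))⁻¹)) h (hQP hq) ?_).symm
    simp [mul_assoc]
  · obtain ⟨u, hu, a, haJ, haL, eu⟩ := hRmem _ _ (hfull t.1 t.2 hg)
    refine ⟨u⁻¹, inv_mem hu, ?_⟩
    show (u⁻¹ * g) • φ t = φ t
    rw [← eu, inv_mul_cancel_left]
    simp only [φ, MulAction.Quotient.smul_mk, smul_eq_mul, QuotientGroup.eq]
    have := inv_mem haL
    simpa [mul_assoc] using this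

/-- The sum over the coset is a sign times the order of `U_J`. -/
theorem sum_stZ_coset (hS : Rules D F) (hR : RootTable D len) (hG : S.Gbar = ⊤) {J : List ℕ} {g : G}
    (hg : g ∈ PL S J) (hell : Ell S J g) [Fintype (S.UJ {k | k ∈ J})] :
    ∃ n : ℕ, (∑ x : S.UJ {k | k ∈ J}, stZ S ((x : G) * g)) =
      (-1) ^ n * (Nat.card (S.UJ {k | k ∈ J}) : ℤ) ∧ ((∀ k < D.rank, k ∉ J) → n = 0) := by
  obtain ⟨n, hn, hn0⟩ := sum_goodSet hS hR J
  refine ⟨n, ?_, hn0⟩
  rw [← hn, Finset.sum_mul]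
  unfold stZ
  rw [Finset.sum_comm]
  refine Finset.sum_congr rfl fun K hK => ?_
  rw [← Finset.mul_sum, ← Nat.cast_sum,
    sum_fixed_PL S hS hR hG hg hell fun k hk => Finset.mem_range.1 (Finset.mem_powerset.1 hK hk)]
  push_cast
  ring

omit [Finite G] in
theorem PL_range_eq_top (hS : Rules D F) (hR : RootTable D len) (hG : S.Gbar = ⊤) {J : List ℕ}
    (hJ : ∀ k < D.rank, k ∈ J) : PL S J = ⊤ := by
  refine top_le_iff.1 fun x _ => ?_
  obtain ⟨b, hb, w, -, v, hv, rfl⟩ := S.mem_NF hS hR (hG.symm ▸ Subgroup.mem_top x)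
  exact mul_mem (mul_mem (Bbar_le_PL S J hb) (nW_mem_PL S fun i _ => hJ i i.2))
    (Bbar_le_PL S J (S.Ubar_le_Bbar (S.US_mono (fun r h => h.1) hv)))

/-- The alternating sum on `U`: `q^N` at `1`, zero elsewhere. -/
theorem stZ_Ubar (hS : Rules D F) (hR : RootTable D len) (hG : S.Gbar = ⊤) {u : G} (hu : u ∈ S.Ubar)
    [Decidable (u = 1)] :
    stZ S u = if u = 1 then (Nat.card F : ℤ) ^ Nat.card (posSet D) else 0 := by
  classical
  set J : Finset ℕ := Finset.range D.rank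
  have htop : S.PJ (J : Set ℕ) = ⊤ := by
    have := PL_range_eq_top S hS hR hG (J := J.toList) fun k hk => Finset.mem_toList.2 (Finset.mem_range.2 hk)
    rw [← this]
    exact congrArg S.PJ (Set.ext fun k => (Finset.mem_toList (s := J)).symm)
  have h := S.alternating_fix hS hR (J := J) (fun k hk => Finset.mem_range.1 hk)
    ⟨u, htop.symm ▸ Subgroup.mem_top u⟩ hu
  have hall : posSub D (J : Set ℕ) = posSet D :=
    Set.ext fun r => ⟨fun h => h.1, fun h => ⟨h, h.1, fun i hi hiJ =>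
      absurd (Finset.mem_coe.2 (Finset.mem_range.2 hi)) hiJ⟩⟩
  have hUJ : S.UJ (J : Set ℕ) = ⊥ := by
    rw [Sys.UJ, Sys.US, Subgroup.closure_eq_bot_iff]
    rintro _ ⟨r, hr, -⟩
    exact absurd (hall.symm.subset hr.1).2 hr.2
  rw [hall] at h
  simp only [hUJ, Subgroup.mem_bot] at h
  unfold stZ
  rw [← h]
  refine Finset.sum_congr rfl fun K _ => ?_
  congr 2
  have eK : PL S K.toList = S.PJ (K : Set ℕ) := congrArg S.PJ (Set.ext fun k => Finset.mem_toList)
  exact fixed_top htop eK ⟨u, htop.symm ▸ Subgroup.mem_top u⟩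

/-- Every term `Σ_{g ∈ P_K}` is counted by double cosets, so only `K = ∅` pairs with the alternating sum. -/
theorem sum_stZ_PL (hS : Rules D F) (hR : RootTable D len) (hG : S.Gbar = ⊤) {K : Finset ℕ}
    (hK : ∀ k ∈ K, k < D.rank) [Fintype (PL S K.toList)] :
    ∑ x : PL S K.toList, stZ S (x : G) =
      if K = ∅ then (Nat.card (PL S K.toList) : ℤ) else 0 := by
  classical
  have h1 : ∀ J ∈ (Finset.range D.rank).powerset,
      ∑ x : (PL S K.toList), Nat.card (MulAction.fixedBy (G ⧸ PL S J.toList) (x : G)) =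
        Nat.card (PL S K.toList) * ((wAll hR).filter fun f => K ⊆ ascL hR f ∧ MinR D J.toList (wRep hR f)).card := by
    intro J _
    set M := J.toList with hM
    let φ : ↥((wAll hR).filter fun f => K ⊆ ascL hR f ∧ MinR D M (wRep hR f)) → G ⧸ PL S M :=
      fun t => QuotientGroup.mk (S.nW (wRep hR t.1))
    have h := sum_fixed_coset (PL S K.toList) (one_mem (Subgroup.normalizer ((PL S K.toList) : Set G))) φ (fun c x hx hc => ?_)
      (fun t t' q hq h => ?_) fun t => ⟨1, one_mem _, by simp⟩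
    · rw [Nat.card_eq_finsetCard] at h
      simpa only [mul_one] using h
    · obtain ⟨y, rfl⟩ := QuotientGroup.mk_surjective c
      obtain ⟨b, hb, w, -, p, hp, rfl⟩ := exists_minR_rep S hS hR M (g := y) (hG.symm ▸ Subgroup.mem_top _)
      obtain ⟨f, hf, hfL, hfR, q, hq, p', hp', ew⟩ := exists_double_rep S hS hR K.toList M w
      refine ⟨⟨f, Finset.mem_filter.2 ⟨hf, (minL_toList_iff hR hK f).2 hfL, hfR⟩⟩, b * q,
        mul_mem (Bbar_le_PL S K.toList hb) hq, ?_⟩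
      simp only [φ, MulAction.Quotient.smul_mk, smul_eq_mul, QuotientGroup.eq, ew]
      simpa [mul_assoc] using mul_mem hp' hp
    · obtain ⟨ht, htK, htR⟩ := Finset.mem_filter.1 t.2
      obtain ⟨ht', htK', htR'⟩ := Finset.mem_filter.1 t'.2
      simp only [φ, MulAction.Quotient.smul_mk, smul_eq_mul, QuotientGroup.eq] at h
      refine Subtype.ext (eq_of_double S hS hR ht ht' ((minL_toList_iff hR hK _).1 htK) htR
        ((minL_toList_iff hR hK _).1 htK') htR' hq h ?_)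
      simp [mul_assoc]
  -- the set of `J` allowed for `f`
  let A : (Fin D.nroots → Fin D.nroots) → Finset ℕ := fun f =>
    (Finset.range D.rank).filter fun k => D.IsPosRoot (act D (wRep hR f) (D.simple k))
  have hA : ∀ f, ∀ J ∈ (Finset.range D.rank).powerset, (MinR D J.toList (wRep hR f) ↔ J ⊆ A f) := by
    intro f J hJ
    constructor
    · intro h k hk
      have hk' := Finset.mem_powerset.1 hJ hk
      exact Finset.mem_filter.2 ⟨hk', h ⟨k, Finset.mem_range.1 hk'⟩ (Finset.mem_toList.2 hk)⟩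
    · intro h j hj
      exact (Finset.mem_filter.1 (h (Finset.mem_toList.1 hj))).2
  have h2 : ∑ x : (PL S K.toList), stZ S (x : G) = ∑ J ∈ (Finset.range D.rank).powerset, (-1 : ℤ) ^ J.card *
      ((Nat.card (PL S K.toList) : ℤ) * (((wAll hR).filter fun f => K ⊆ ascL hR f ∧ MinR D J.toList (wRep hR f)).card : ℤ)) := by
    unfold stZ
    rw [Finset.sum_comm]
    refine Finset.sum_congr rfl fun J hJ => ?_
    rw [← Finset.mul_sum, ← Nat.cast_sum, h1 J hJ]
    push_cast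
    rfl
  have h3 : ∑ J ∈ (Finset.range D.rank).powerset, (-1 : ℤ) ^ J.card *
      (((wAll hR).filter fun f => K ⊆ ascL hR f ∧ MinR D J.toList (wRep hR f)).card : ℤ) =
        ∑ f ∈ wAll hR, if K ⊆ ascL hR f ∧ A f = ∅ then 1 else 0 := by
    rw [Finset.sum_congr rfl fun J _ => show (-1 : ℤ) ^ J.card *
        (((wAll hR).filter fun f => K ⊆ ascL hR f ∧ MinR D J.toList (wRep hR f)).card : ℤ) =
        ∑ f ∈ wAll hR, if K ⊆ ascL hR f ∧ MinR D J.toList (wRep hR f) then (-1 : ℤ) ^ J.card else 0 by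
      rw [← Finset.sum_filter, Finset.sum_const, nsmul_eq_mul, mul_comm], Finset.sum_comm]
    refine Finset.sum_congr rfl fun f _ => ?_
    by_cases hKf : K ⊆ ascL hR f
    · rw [← Finset.sum_filter, show (Finset.range D.rank).powerset.filter
          (fun J => K ⊆ ascL hR f ∧ MinR D J.toList (wRep hR f)) = (A f).powerset from Finset.ext fun J => by
        simp only [Finset.mem_filter, hKf, true_and]
        exact ⟨fun h => Finset.mem_powerset.2 ((hA f J h.1).1 h.2), fun h =>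
          have hJ := Finset.mem_powerset.2 ((Finset.mem_powerset.1 h).trans (Finset.filter_subset _ _))
          ⟨hJ, (hA f J hJ).2 (Finset.mem_powerset.1 h)⟩⟩,
        Finset.sum_powerset_neg_one_pow_card]
      simp [hKf]
    · simp [hKf]
  obtain ⟨u₀, -, hun, hur⟩ := hR.exists_longest_sub ((Finset.range D.rank : Finset ℕ) : Set ℕ)
  have hposall : ∀ k : Fin D.rank, D.simple k ∈ posSub D ((Finset.range D.rank : Finset ℕ) : Set ℕ) := fun k =>
    ⟨hR.simple_pos k, (hR.simple_pos k).1, fun i hi hiJ => absurd (Finset.mem_coe.2 (Finset.mem_range.2 hi)) hiJ⟩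
  set f₀ := hR.actF u₀
  have e₀ := sameAct_wRep hR u₀
  have hA₀ : A f₀ = ∅ := Finset.filter_eq_empty_iff.2 fun k hk h => by
    rw [e₀ _ (hR.simple_lt k (Finset.mem_range.1 hk))] at h
    exact hR.not_pos_and_neg h (hun _ (hposall ⟨k, Finset.mem_range.1 hk⟩))
  have hasc₀ : ascL hR f₀ = ∅ := Finset.eq_empty_of_forall_notMem fun k hk => by
    have hk' : k < D.rank := Finset.mem_range.1 (ascL_subset hR _ hk)
    have h := (mem_ascL hR ⟨k, hk'⟩).1 hk
    rw [(e₀.reverse hR) _ (hR.simple_lt k hk')] at h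
    exact hR.not_pos_and_neg h (hur _ (hposall ⟨k, hk'⟩))
  have h4 : (∑ f ∈ wAll hR, if K ⊆ ascL hR f ∧ A f = ∅ then (1 : ℤ) else 0) = if K = ∅ then 1 else 0 := by
    rw [Finset.sum_eq_single_of_mem f₀ (actF_mem_wAll hR u₀) fun f hf hne => if_neg fun h => hne ?_]
    · simp [hA₀, hasc₀, Finset.subset_empty]
    · refine eq_of_sameAct hR hf (actF_mem_wAll hR u₀) (longest_unique hS hR (fun j => ?_) fun j => ?_)
      · refine (hR.sign _ (hR.act_lt _ (hR.simple_lt j j.2))).resolve_left fun hp => ?_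
        exact Finset.notMem_empty j.val (h.2 ▸ Finset.mem_filter.2 ⟨Finset.mem_range.2 j.2, hp⟩)
      · rw [e₀ _ (hR.simple_lt j j.2)]
        exact hun _ (hposall j)
  rw [h2, Finset.sum_congr rfl fun J _ => mul_left_comm _ _ _, ← Finset.mul_sum, h3, h4, mul_ite, mul_one, mul_zero]

end Coset

end Cfsg.Agent.ChevGrp.Stein
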