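import Cfsg.Agent.ChevGrp.Stein.Avg
import Cfsg.Agent.ChevSteinberg.SylowU
import Cfsg.Agent.ChevSteinberg.GrpSys
import Cfsg.Agent.OddChar43.Lattice
import Cfsg.Agent.Char.DefectZero
import Cfsg.Agent.UnipGL.Characters
import Cfsg.Agent.OddChar.CoprimeCoset

/-!
The Steinberg character: irreducibility, degree, vanishing, values at semisimple elements (owner: helper32).
-/

set_option autoImplicit false
set_option linter.style.haveILetI false
set_option linter.unusedSectionVars false

namespace Cfsg.Agent.ChevGrp.Stein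

open Cfsg.Lie Cfsg.Agent.ChevSteinberg
open scoped MatrixGroups ComplexConjugate

theorem sum_fixed_mul {G : Type*} [Group G] [Fintype G] (P : Subgroup G) [Fintype P] (h : G → ℤ)
    (hh : ∀ x g, h (x * g * x⁻¹) = h g) :
    ∑ g : G, (Nat.card (MulAction.fixedBy (G ⧸ P) g) : ℤ) * h g = Nat.card (G ⧸ P) * ∑ x : P, h x := by
  classical
  let e : (Σ g : G, MulAction.fixedBy (G ⧸ P) g) ≃ (G ⧸ P) × P :=
    { toFun := fun a => ⟨a.2.1, a.2.1.out⁻¹ * a.1 * a.2.1.out, by
        have h : a.1 • a.2.1 = a.2.1 := a.2.2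
        rw [← QuotientGroup.out_eq' a.2.1, MulAction.Quotient.smul_mk, eq_comm, QuotientGroup.eq,
          smul_eq_mul, ← mul_assoc] at h
        exact h⟩
      invFun := fun b => ⟨b.1.out * b.2 * b.1.out⁻¹, b.1, by
        rw [MulAction.mem_fixedBy]
        calc (b.1.out * b.2 * b.1.out⁻¹) • b.1
            = (b.1.out * b.2 * b.1.out⁻¹) • (QuotientGroup.mk b.1.out : G ⧸ P) := by rw [QuotientGroup.out_eq']
          _ = QuotientGroup.mk (b.1.out * b.2) := by
              rw [MulAction.Quotient.smul_mk, smul_eq_mul, inv_mul_cancel_right]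
          _ = QuotientGroup.mk b.1.out := QuotientGroup.mk_mul_of_mem _ b.2.2
          _ = b.1 := QuotientGroup.out_eq' b.1⟩
      left_inv := by
        rintro ⟨g, ⟨c, hc⟩⟩
        refine Sigma.subtype_ext ?_ rfl
        simp [mul_assoc]
      right_inv := by
        rintro ⟨c, x⟩
        refine Prod.ext rfl (Subtype.ext ?_)
        simp [mul_assoc] }
  calc ∑ g : G, (Nat.card (MulAction.fixedBy (G ⧸ P) g) : ℤ) * h g
      = ∑ g : G, ∑ _c : MulAction.fixedBy (G ⧸ P) g, h g := Finset.sum_congr rfl fun g _ => by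
        rw [Finset.sum_const, Finset.card_univ, Nat.card_eq_fintype_card, nsmul_eq_mul]
    _ = ∑ a : Σ g : G, MulAction.fixedBy (G ⧸ P) g, h a.1 := (Fintype.sum_sigma fun a => h a.1).symm
    _ = ∑ b : (G ⧸ P) × P, h (b.2 : G) := by
        refine Fintype.sum_equiv e _ _ fun a => ?_
        show h a.1 = h (a.2.1.out⁻¹ * a.1 * a.2.1.out)
        conv_rhs => rw [← inv_inv a.2.1.out, inv_inv a.2.1.out⁻¹]
        exact ((congrArg h (by rw [inv_inv])).trans (hh a.2.1.out⁻¹ a.1)).symm
    _ = _ := by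
        rw [Fintype.sum_prod_type]
        simp only [Finset.sum_const, Finset.card_univ, Nat.card_eq_fintype_card, nsmul_eq_mul]

section Abstract

variable {G : Type*} [Group G] [Finite G] {p : ℕ} [hp : Fact p.Prime]

theorem dvd_orderOf_mul {Q : Subgroup G} (hQ : IsPGroup p Q) {c g : G} (hc : c ∈ Q) (h1 : c ≠ 1)
    (hcg : Commute c g) (hg : ¬ p ∣ orderOf g) : p ∣ orderOf (c * g) := by
  obtain ⟨k, hk⟩ := IsPGroup.iff_orderOf.mp hQ ⟨c, hc⟩
  rw [Subgroup.orderOf_mk] at hk
  have hk0 : k ≠ 0 := fun h0 => h1 (orderOf_eq_one_iff.1 (by rw [hk, h0, pow_zero]))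
  rw [hcg.orderOf_mul_eq_mul_orderOf_of_coprime (hk ▸ (hp.out.coprime_iff_not_dvd.2 hg).pow_left k), hk]
  exact dvd_mul_of_dvd_left (dvd_pow_self p hk0) _

theorem sum_eq_of_centralizes (Q : Subgroup G) [Fintype Q] (hQ : IsPGroup p Q) {g : G}
    (hg : ¬ p ∣ orderOf g) (h : G → ℤ) (hvan : ∀ z, p ∣ orderOf z → h z = 0)
    (hC : ∀ x ∈ Q, x * g = g * x) : ∑ x : Q, h ((x : G) * g) = h g := by
  rw [Finset.sum_eq_single (1 : Q), OneMemClass.coe_one, one_mul]
  · exact fun x _ hx => hvan _ (dvd_orderOf_mul hQ x.2 (fun e => hx (Subtype.ext e)) (hC x x.2) hg)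
  · exact fun h => absurd (Finset.mem_univ _) h

/-- A class function vanishing on `p`-singular elements, summed over the coset `Qg`. -/
theorem regular_coset (Q : Subgroup G) [Fintype Q] (hQ : IsPGroup p Q) {g : G}
    (hgQ : g ∈ Subgroup.normalizer (Q : Set G)) (hg : ¬ p ∣ orderOf g) (h : G → ℤ)
    (hcl : ∀ x z, h (x * z * x⁻¹) = h z) (hvan : ∀ z, p ∣ orderOf z → h z = 0) :
    (Nat.card ↥(Q ⊓ Subgroup.centralizer ({g} : Set G)) : ℤ) * ∑ x : Q, h ((x : G) * g) =
      (Nat.card Q : ℤ) * h g := by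
  classical
  obtain ⟨a, ha⟩ := IsPGroup.iff_card.1 hQ
  have hcop : Nat.Coprime (orderOf g) (Nat.card Q) := by
    rw [ha]
    exact ((hp.out.coprime_iff_not_dvd.2 hg).pow_left a).symm
  let T := Finset.univ.filter fun x : Q => ¬ p ∣ orderOf ((x : G) * g)
  have hval : ∀ x ∈ T, ∃ y ∈ Q, y * g * y⁻¹ = (x : G) * g := by
    intro x hx
    obtain ⟨y, hy, c, hc, hcg, e⟩ := OddChar.exists_conj_centralizer_coset Q g hgQ hcop x x.2
    have hc1 : c = 1 := by
      by_contra h1
      refine (Finset.mem_filter.1 hx).2 ?_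
      have ho : orderOf ((x : G) * g) = orderOf (c * g) := by
        rw [← e]; exact ((MulAut.conj y).orderOf_eq _).symm
      rw [ho]
      exact dvd_orderOf_mul hQ hc h1 hcg hg
    rw [hc1, one_mul] at e
    refine ⟨y⁻¹, inv_mem hy, ?_⟩
    calc y⁻¹ * g * y⁻¹⁻¹ = y⁻¹ * (y * ((x : G) * g) * y⁻¹) * y⁻¹⁻¹ := by rw [e]
      _ = (x : G) * g := by simp [mul_assoc]
  have hsum : ∑ x : Q, h ((x : G) * g) = (T.card : ℤ) * h g := by
    rw [← Finset.sum_filter_add_sum_filter_not Finset.univ (fun x : Q => ¬ p ∣ orderOf ((x : G) * g)),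
      Finset.sum_congr rfl fun (x : Q) (hx : x ∈ T) => show h ((x : G) * g) = h g by
        obtain ⟨y, -, ey⟩ := hval x hx
        rw [← ey, hcl],
      Finset.sum_const, nsmul_eq_mul,
      Finset.sum_eq_zero (fun x hx => hvan _ (not_not.1 (Finset.mem_filter.1 hx).2)), add_zero]
  have hcount : T.card * Nat.card ↥(Q ⊓ Subgroup.centralizer ({g} : Set G)) = Nat.card Q := by
    let f : Q → Q := fun y => ⟨(y : G) * (g * (y : G)⁻¹ * g⁻¹),
      mul_mem y.2 ((Subgroup.mem_normalizer_iff.1 hgQ _).1 (inv_mem y.2))⟩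
    have hf : ∀ y : Q, (f y : G) * g = y * g * (y : G)⁻¹ := fun y => by simp [f, mul_assoc]
    have hmaps : ∀ y ∈ (Finset.univ : Finset Q), f y ∈ T := fun y _ => by
      refine Finset.mem_filter.2 ⟨Finset.mem_univ _, ?_⟩
      rwa [hf, ← MulAut.conj_apply, (MulAut.conj (y : G)).orderOf_eq]
    have hfib : ∀ x ∈ T, (Finset.univ.filter fun y => f y = x).card =
        Nat.card ↥(Q ⊓ Subgroup.centralizer ({g} : Set G)) := by
      intro x hx
      obtain ⟨y₀, hy₀, ey₀⟩ := hval x hx
      rw [← Nat.card_eq_finsetCard]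
      refine Nat.card_congr
        { toFun := fun y => ⟨y₀⁻¹ * (y.1 : G), Subgroup.mem_inf.2 ⟨Q.mul_mem (Q.inv_mem hy₀) y.1.2, ?_⟩⟩
          invFun := fun z => ⟨⟨y₀ * z.1, Q.mul_mem hy₀ (Subgroup.mem_inf.1 z.2).1⟩, ?_⟩
          left_inv := fun y => by simp
          right_inv := fun z => by simp }
      · have h : f y.1 = x := (Finset.mem_filter.1 y.2).2
        have e : (y.1 : G) * g * (y.1 : G)⁻¹ = y₀ * g * y₀⁻¹ := by rw [← hf, h, ey₀]
        refine Subgroup.mem_centralizer_singleton_iff.2 ?_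
        calc y₀⁻¹ * (y.1 : G) * g
            = y₀⁻¹ * ((y.1 : G) * g * (y.1 : G)⁻¹) * y.1 := by simp [mul_assoc]
          _ = g * (y₀⁻¹ * (y.1 : G)) := by rw [e]; simp [mul_assoc]
      · refine Finset.mem_filter.2 ⟨Finset.mem_univ _, Subtype.ext (mul_right_cancel (b := g) ?_)⟩
        rw [hf, ← ey₀]
        have hz := Subgroup.mem_centralizer_singleton_iff.1 (Subgroup.mem_inf.1 z.2).2
        calc y₀ * (z.1 : G) * g * (y₀ * (z.1 : G))⁻¹
            = y₀ * ((z.1 : G) * g) * (z.1 : G)⁻¹ * y₀⁻¹ := by simp [mul_assoc]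
          _ = y₀ * g * y₀⁻¹ := by rw [hz]; simp [mul_assoc]
    rw [Nat.card_eq_fintype_card (α := Q), ← Finset.card_univ, Finset.card_eq_sum_card_fiberwise hmaps,
      Finset.sum_congr rfl hfib, Finset.sum_const, smul_eq_mul]
  rw [hsum, ← hcount]
  push_cast
  ring

end Abstract

variable {D : ChevalleyDatum} {F : Type*} [Field F] [Fintype F] {len : ℕ → ℕ}

/-- The group as a system of root elements. -/
noncomputable abbrev gS (hS : Rules D F) : Sys D F ↥(D.group F) := grpSys hS

theorem stein_eq (hS : Rules D F) (hR : RootTable D len) :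
    D.steinbergCharacter F =
      ∑ J ∈ (Finset.range D.rank).powerset, ((-1 : ℤ) ^ J.card) • fixedPointCharacter (PL (gS hS) J.toList) := by
  funext g
  rw [Finset.sum_apply]
  refine Finset.sum_congr rfl fun J _ => ?_
  rw [parabolicIn_eq hS hR, Pi.smul_apply, zsmul_eq_mul]
  push_cast
  rfl

theorem stein_apply (hS : Rules D F) (hR : RootTable D len) (g : ↥(D.group F)) :
    D.steinbergCharacter F g = (stZ (gS hS) g : ℂ) := by
  rw [stein_eq hS hR, Finset.sum_apply, stZ, Int.cast_sum]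
  refine Finset.sum_congr rfl fun J _ => ?_
  simp [fixedPointCharacter]

theorem card_Ubar_eq (hS : Rules D F) (hR : RootTable D len) :
    Nat.card (gS hS).Ubar = Nat.card F ^ Nat.card (posSet D) := (gS hS).card_US hR hR.posSet_closed

theorem isPGroup_gS (hS : Rules D F) (hR : RootTable D len) (p : ℕ) [Fact p.Prime] [CharP F p] :
    IsPGroup p (gS hS).Ubar := by
  obtain ⟨m, -, hm⟩ := FiniteField.card F p
  refine IsPGroup.of_card (n := (m : ℕ) * Nat.card (posSet D)) ?_
  rw [card_Ubar_eq hS hR, pow_mul, ← hm, Nat.card_eq_fintype_card]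

theorem stZ_one (hS : Rules D F) (hR : RootTable D len) :
    stZ (gS hS) 1 = (Nat.card F : ℤ) ^ Nat.card (posSet D) := by
  classical
  rw [stZ_Ubar (gS hS) hS hR (Gbar_grpSys hS) (one_mem _), if_pos rfl]

theorem stein_one (hS : Rules D F) (hR : RootTable D len) :
    D.steinbergCharacter F 1 = (Fintype.card F : ℂ) ^ (D.nroots / 2) := by
  have e : Nat.card (posSet D) = D.nroots / 2 := by
    have := card_posSet (F := F) hS
    omega
  rw [stein_apply hS hR, stZ_one hS hR, e, Nat.card_eq_fintype_card]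
  push_cast
  rfl

theorem stein_norm (hS : Rules D F) (hR : RootTable D len) [Fintype ↥(D.group F)] :
    classInner (D.steinbergCharacter F) (D.steinbergCharacter F) = 1 := by
  classical
  set S := gS hS
  have h : ∑ g : ↥(D.group F), stZ S g * stZ S g = (Nat.card ↥(D.group F) : ℤ) := by
    calc ∑ g : ↥(D.group F), stZ S g * stZ S g
        = ∑ g : ↥(D.group F), ∑ K ∈ (Finset.range D.rank).powerset, (-1 : ℤ) ^ K.card *
            ((Nat.card (MulAction.fixedBy (↥(D.group F) ⧸ PL S K.toList) g) : ℤ) * stZ S g) :=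
          Finset.sum_congr rfl fun g _ => by
            conv_lhs => arg 1; rw [stZ]
            rw [Finset.sum_mul]
            exact Finset.sum_congr rfl fun K _ => mul_assoc _ _ _
      _ = ∑ K ∈ (Finset.range D.rank).powerset, (-1 : ℤ) ^ K.card *
            ((Nat.card (↥(D.group F) ⧸ PL S K.toList) : ℤ) *
              if K = ∅ then (Nat.card (PL S K.toList) : ℤ) else 0) := by
          rw [Finset.sum_comm]
          refine Finset.sum_congr rfl fun K hK => ?_
          rw [← Finset.mul_sum, sum_fixed_mul _ _ fun x g => stZ_conj S x g,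
            sum_stZ_PL S hS hR (Gbar_grpSys hS) fun k hk => Finset.mem_range.1 (Finset.mem_powerset.1 hK hk)]
      _ = _ := by
          rw [Finset.sum_eq_single_of_mem ∅ (Finset.empty_mem_powerset _) fun K _ hK => by simp [hK]]
          rw [if_pos rfl, Finset.card_empty, pow_zero, one_mul, ← Nat.cast_mul,
            ← Subgroup.card_eq_card_quotient_mul_card_subgroup]
  unfold classInner
  have hc : ∑ g : ↥(D.group F), D.steinbergCharacter F g * conj (D.steinbergCharacter F g) =
      ((∑ g : ↥(D.group F), stZ S g * stZ S g : ℤ) : ℂ) := by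
    rw [Int.cast_sum]
    refine Finset.sum_congr rfl fun g _ => ?_
    rw [stein_apply hS hR, map_intCast, Int.cast_mul]
  rw [hc, h, Int.cast_natCast, inv_mul_cancel₀ (Nat.cast_ne_zero.2 Nat.card_pos.ne')]

theorem stein_irr (hS : Rules D F) (hR : RootTable D len) :
    IsIrrCharacter ↥(D.group F) (D.steinbergCharacter F) := by
  classical
  letI := Fintype.ofFinite ↥(D.group F)
  have hgen : IsGeneralizedCharacter ↥(D.group F) (D.steinbergCharacter F) := by
    rw [stein_eq hS hR]
    exact OddChar43.isGen_sum _ fun J _ => OddChar43.isGen_zsmul _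
      (Char.isGeneralizedCharacter_of_isCharacter (UnipGL.isCharacter_fixedPointCharacter _))
  obtain ⟨ε, χ, hε, hχ, e⟩ := OddChar43.isGen_norm_one hgen (stein_norm hS hR)
  obtain ⟨d, hd0, hd, -⟩ := Char.irr_degree_dvd_card hχ
  rcases hε with rfl | rfl
  · rwa [e, one_smul]
  · exfalso
    have h1 := congrFun e 1
    rw [stein_apply hS hR, stZ_one hS hR, Pi.smul_apply, zsmul_eq_mul, hd] at h1
    have h2 : ((Nat.card F : ℤ) ^ Nat.card (posSet D)) = -(d : ℤ) := by exact_mod_cast (show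
      (((Nat.card F : ℤ) ^ Nat.card (posSet D) : ℤ) : ℂ) = ((-(d : ℤ) : ℤ) : ℂ) by rw [h1]; push_cast; ring)
    have h3 : (0 : ℤ) < (Nat.card F : ℤ) ^ Nat.card (posSet D) := pow_pos (Nat.cast_pos.2 Nat.card_pos) _
    omega

theorem stein_vanish (hS : Rules D F) (hR : RootTable D len) (p : ℕ) [hp : Fact p.Prime] [CharP F p]
    (g : ↥(D.group F)) (hg : p ∣ orderOf g) : D.steinbergCharacter F g = 0 := by
  obtain ⟨n, -, hn⟩ := FiniteField.card F p
  refine Char.irr_defect_zero_vanish (stein_irr hS hR) hp.out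
    (d := Nat.card ((D.posUnipotent F).subgroupOf (D.group F)))
    (m := ((D.posUnipotent F).subgroupOf (D.group F)).index) ?_
    (Subgroup.card_mul_index _).symm (not_dvd_index_posUnipotent hS p).1 g hg
  rw [posUnipotent_subgroupOf_eq hS, card_Ubar_eq hS hR, stein_apply hS hR, stZ_one hS hR]
  push_cast
  rfl

theorem stZ_vanish (hS : Rules D F) (hR : RootTable D len) (p : ℕ) [Fact p.Prime] [CharP F p]
    {g : ↥(D.group F)} (hg : p ∣ orderOf g) : stZ (gS hS) g = 0 := by
  have h := stein_vanish hS hR p g hg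
  rw [stein_apply hS hR] at h
  exact_mod_cast h

/-- The value at a semisimple element in no proper parabolic subgroup of `P_J`. -/
theorem stZ_elliptic (hS : Rules D F) (hR : RootTable D len) (p : ℕ) [hp : Fact p.Prime] [CharP F p]
    {J : List ℕ} {g : ↥(D.group F)} (hgJ : g ∈ PL (gS hS) J) (hell : Ell (gS hS) J g)
    (hg : ¬ p ∣ orderOf g) :
    ∃ n : ℕ, stZ (gS hS) g = (-1) ^ n *
        (Nat.card ↥((gS hS).UJ {k | k ∈ J} ⊓ Subgroup.centralizer ({g} : Set ↥(D.group F))) : ℤ) ∧
      ((∀ k < D.rank, k ∉ J) → n = 0) := by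
  classical
  set S := gS hS
  obtain ⟨n, hn, hn0⟩ : ∃ n : ℕ, (∑ x : S.UJ {k | k ∈ J}, stZ S ((x : ↥(D.group F)) * g)) =
      (-1) ^ n * (Nat.card (S.UJ {k | k ∈ J}) : ℤ) ∧ ((∀ k < D.rank, k ∉ J) → n = 0) :=
    sum_stZ_coset S hS hR (Gbar_grpSys hS) hgJ hell
  refine ⟨n, ?_, hn0⟩
  have hgQ : g ∈ Subgroup.normalizer (S.UJ {k | k ∈ J} : Set ↥(D.group F)) :=
    S.PJ_le_normalizer hS hR _ hgJ
  have hQp : IsPGroup p (S.UJ {k | k ∈ J}) := (isPGroup_gS hS hR p).to_le (S.US_mono fun r h => h.1)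
  have h := regular_coset _ hQp hgQ hg (stZ S) (fun x g => stZ_conj S x g)
    (fun z hz => stZ_vanish hS hR p hz)
  rw [hn] at h
  have hQ0 : (Nat.card (S.UJ {k | k ∈ J}) : ℤ) ≠ 0 := Nat.cast_ne_zero.2 Nat.card_pos.ne'
  exact (mul_left_cancel₀ hQ0 (by rw [← h]; ring)).symm

/-- The value at a semisimple element is the `p`-part of the order of its centralizer, up to sign. -/
theorem stZ_semisimple (hS : Rules D F) (hR : RootTable D len) (p : ℕ) [hp : Fact p.Prime] [CharP F p]
    {g : ↥(D.group F)} (hg : ¬ p ∣ orderOf g) :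
    ∃ n : ℕ, stZ (gS hS) g = (-1) ^ n *
      ((p ^ (Nat.card ↥(Subgroup.centralizer ({g} : Set ↥(D.group F)))).factorization p : ℕ) : ℤ) := by
  classical
  set S := gS hS
  set C := Subgroup.centralizer ({g} : Set ↥(D.group F))
  set e := (Nat.card C).factorization p
  -- divisibility from a Sylow subgroup of the centralizer
  have hdiv : ∃ z : ℤ, stZ S g = (p ^ e : ℕ) * z := by
    obtain ⟨P⟩ : Nonempty (Sylow p C) := inferInstance
    set Q := (P : Subgroup C).map C.subtype
    have hQc : Nat.card Q = p ^ e := by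
      rw [Subgroup.card_map_of_injective C.subtype_injective, P.card_eq_multiplicity]
    have hQp : IsPGroup p Q := IsPGroup.of_card hQc
    have hgQ : g ∈ Subgroup.normalizer (Q : Set ↥(D.group F)) := by
      refine Subgroup.mem_normalizer_iff.2 fun x => ?_
      have hx : ∀ x ∈ Q, g * x * g⁻¹ = x := fun x hx => by
        obtain ⟨c, -, rfl⟩ := hx
        rw [show g * (C.subtype c) = C.subtype c * g from (Subgroup.mem_centralizer_singleton_iff.1 c.2).symm,
          mul_inv_cancel_right]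
      refine ⟨fun h => by rwa [hx x h], fun h => ?_⟩
      have h2 := hx _ h
      have h3 : g * x * g⁻¹ = x := (MulAut.conj g).injective h2
      rwa [h3] at h
    have hs : ∑ x : Q, stZ S ((x : ↥(D.group F)) * g) = stZ S g :=
      sum_eq_of_centralizes Q hQp hg (stZ S) (fun z hz => stZ_vanish hS hR p hz) fun x hx => by
        obtain ⟨c, -, rfl⟩ := hx
        exact Subgroup.mem_centralizer_singleton_iff.1 c.2
    choose m hm using fun K : Finset ℕ =>
      exists_sum_fixed_coset (X := ↥(D.group F) ⧸ PL S K.toList) Q hgQ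
    refine ⟨∑ K ∈ (Finset.range D.rank).powerset, (-1 : ℤ) ^ K.card * (m K : ℤ), ?_⟩
    rw [← hs, Finset.mul_sum]
    unfold stZ
    rw [Finset.sum_comm]
    refine Finset.sum_congr rfl fun K _ => ?_
    rw [← Finset.mul_sum, ← Nat.cast_sum, hm K, hQc]
    push_cast
    ring
  -- a minimal parabolic subgroup containing a conjugate
  let A : Finset (Finset ℕ) := (Finset.range D.rank).powerset.filter fun K =>
    ∃ x : ↥(D.group F), x * g * x⁻¹ ∈ PL S K.toList
  have hA : (Finset.range D.rank) ∈ A := Finset.mem_filter.2 ⟨Finset.mem_powerset_self _, 1, by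
    rw [PL_range_eq_top S hS hR (Gbar_grpSys hS) fun k hk => Finset.mem_toList.2 (Finset.mem_range.2 hk)]
    exact Subgroup.mem_top _⟩
  obtain ⟨J, hJA, hJmin⟩ := Finset.exists_min_image A Finset.card ⟨_, hA⟩
  obtain ⟨hJr, x, hx⟩ := Finset.mem_filter.1 hJA
  set g' := x * g * x⁻¹ with hg'
  have hell : Ell S J.toList g' := by
    intro y hy j hj hmem
    have hsub : J.erase j.val ∈ A := by
      refine Finset.mem_filter.2 ⟨Finset.mem_powerset.2 ((Finset.erase_subset _ _).trans (Finset.mem_powerset.1 hJr)),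
        y * x, ?_⟩
      have e : (y * x) * g * (y * x)⁻¹ = y * g' * y⁻¹ := by simp [hg', mul_assoc]
      rw [e]
      refine S.PJ_mono ?_ hmem
      intro k hk
      obtain ⟨h1, h2⟩ := List.mem_filter.1 hk
      exact Finset.mem_toList.2 (Finset.mem_erase.2 ⟨of_decide_eq_true h2, Finset.mem_toList.1 h1⟩)
    have := hJmin _ hsub
    have := Finset.card_erase_lt_of_mem (Finset.mem_toList.1 hj)
    omega
  have hord : orderOf g' = orderOf g := by rw [hg', ← MulAut.conj_apply, (MulAut.conj x).orderOf_eq]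
  obtain ⟨n, hn, -⟩ := stZ_elliptic hS hR p hx hell (by rwa [hord])
  refine ⟨n, ?_⟩
  set V := S.UJ {k | k ∈ J.toList} ⊓ Subgroup.centralizer ({g'} : Set ↥(D.group F))
  rw [show stZ S g' = stZ S g from stZ_conj S x g] at hn
  have hUp : IsPGroup p S.Ubar := isPGroup_gS hS hR p
  obtain ⟨a, ha⟩ := IsPGroup.iff_card.1 (hUp.to_le (inf_le_left.trans (S.US_mono fun r h => h.1) : V ≤ S.Ubar))
  have hCC : Nat.card ↥(Subgroup.centralizer ({g'} : Set ↥(D.group F))) = Nat.card C := by
    refine (Nat.card_congr (Equiv.subtypeEquiv (MulAut.conj x).toEquiv fun c => ?_)).symm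
    simp only [C, Subgroup.mem_centralizer_singleton_iff, MulEquiv.toEquiv_eq_coe, EquivLike.coe_coe,
      MulAut.conj_apply, hg']
    constructor <;> intro h
    · calc x * c * x⁻¹ * (x * g * x⁻¹) = x * (c * g) * x⁻¹ := by simp [mul_assoc]
        _ = x * g * x⁻¹ * (x * c * x⁻¹) := by rw [h]; simp [mul_assoc]
    · have h1 : x * (c * g) * x⁻¹ = x * (g * c) * x⁻¹ := by simpa [mul_assoc] using h
      exact mul_left_cancel (mul_right_cancel h1)
  have hle : a ≤ e := (hp.out.pow_dvd_iff_le_factorization Nat.card_pos.ne').1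
    (hCC ▸ ha ▸ Subgroup.card_dvd_of_le inf_le_right)
  obtain ⟨z, hz⟩ := hdiv
  have hge : e ≤ a := by
    have h1 : ((p ^ e : ℕ) : ℤ) ∣ (-1 : ℤ) ^ n * ((p ^ a : ℕ) : ℤ) := ⟨z, by rw [← hz, hn, ← ha]⟩
    rw [((isUnit_one.neg).pow n).dvd_mul_left, Int.natCast_dvd_natCast] at h1
    exact (Nat.pow_dvd_pow_iff_le_right hp.out.one_lt).1 h1
  rw [hn, ha, le_antisymm hle hge]

end Cfsg.Agent.ChevGrp.Stein
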