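import Cfsg.Agent.ChevGrp.Cells
import Cfsg.Agent.ChevSteinberg.Cells

/-!
The alternating sum over `K` of the number of double cosets `W_K d W_J` with `d(Φ_J) ⊆ Φ_K` is a sign
(owner: helper32).
-/

set_option autoImplicit false

namespace Cfsg.Agent.ChevGrp.Stein

open Cfsg.Lie Cfsg.Agent.ChevSteinberg
open scoped BigOperators

variable {D : ChevalleyDatum} {len : ℕ → ℕ}

/-- The Weyl elements, as actions on the roots. -/
noncomputable def wAll (hR : RootTable D len) : Finset (Fin D.nroots → Fin D.nroots) :=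
  hR.WSet ((Finset.range D.rank : Finset ℕ) : Set ℕ)

/-- The chosen word. -/
noncomputable def wRep (hR : RootTable D len) (f : Fin D.nroots → Fin D.nroots) : List (Fin D.rank) :=
  hR.rep ((Finset.range D.rank : Finset ℕ) : Set ℕ) f

theorem actF_mem_wAll (hR : RootTable D len) (w : List (Fin D.rank)) : hR.actF w ∈ wAll hR :=
  hR.mem_WSet.2 ⟨w, fun i _ => Finset.mem_coe.2 (Finset.mem_range.2 i.2), rfl⟩

theorem sameAct_wRep (hR : RootTable D len) (w : List (Fin D.rank)) :
    SameAct D (wRep hR (hR.actF w)) w :=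
  fun _ hr => hR.rep_act (actF_mem_wAll hR w) hr

theorem eq_of_sameAct (hR : RootTable D len) {f g : Fin D.nroots → Fin D.nroots} (hf : f ∈ wAll hR)
    (hg : g ∈ wAll hR) (h : SameAct D (wRep hR f) (wRep hR g)) : f = g :=
  (hR.rep_spec hf).2.trans ((hR.mem_actF_iff.2 h).trans (hR.rep_spec hg).2.symm)

/-- The ascents of the inverse. -/
noncomputable def ascL (hR : RootTable D len) (f : Fin D.nroots → Fin D.nroots) : Finset ℕ :=
  hR.asc (Finset.range D.rank) f

theorem mem_ascL (hR : RootTable D len) {f : Fin D.nroots → Fin D.nroots} (k : Fin D.rank) :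
    k.val ∈ ascL hR f ↔ D.IsPosRoot (act D (wRep hR f).reverse (D.simple k)) := by
  simp [ascL, RootTable.asc, wRep]

theorem ascL_subset (hR : RootTable D len) (f : Fin D.nroots → Fin D.nroots) :
    ascL hR f ⊆ Finset.range D.rank := Finset.filter_subset _ _

/-- The fundamental roots occurring in the images of those of `J`. -/
noncomputable def supJ (hR : RootTable D len) (J : List ℕ) (f : Fin D.nroots → Fin D.nroots) : Finset ℕ := by
  classical
  exact (Finset.range D.rank).filter fun k => ∃ j : Fin D.rank, j.val ∈ J ∧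
    (D.coroot.getD (act D (wRep hR f) (D.simple j)) #[]).getD k 0 ≠ 0

theorem mem_supJ (hR : RootTable D len) (J : List ℕ) {f : Fin D.nroots → Fin D.nroots} (k : Fin D.rank) :
    k.val ∈ supJ hR J f ↔
      ∃ j : Fin D.rank, j.val ∈ J ∧ vec D len (act D (wRep hR f) (D.simple j)) k ≠ 0 := by
  classical
  simp only [supJ, Finset.mem_filter, Finset.mem_range, k.2, true_and, vec]
  refine exists_congr fun j => and_congr_right fun _ => ?_
  have h := hR.len_pos (hR.act_lt (wRep hR f) (hR.simple_lt j j.2))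
  constructor
  · exact fun h1 => mul_ne_zero (Nat.cast_ne_zero.2 h.ne') h1
  · exact fun h1 => right_ne_zero_of_mul h1

theorem supJ_subset_iff (hR : RootTable D len) (J : List ℕ) {f : Fin D.nroots → Fin D.nroots}
    {K : Finset ℕ} :
    supJ hR J f ⊆ K ↔
      ∀ j : Fin D.rank, j.val ∈ J → D.InRootSub (K : Set ℕ) (act D (wRep hR f) (D.simple j)) := by
  classical
  constructor
  · intro h j hj
    refine ⟨hR.act_lt _ (hR.simple_lt j j.2), fun i hi hiK => ?_⟩
    by_contra h0
    exact hiK (Finset.mem_coe.2 (h (Finset.mem_filter.2 ⟨Finset.mem_range.2 hi, j, hj, h0⟩)))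
  · intro h k hk
    obtain ⟨hk, j, hj, hjk⟩ := Finset.mem_filter.1 hk
    by_contra hkK
    exact hjk ((h j hj).2 k (Finset.mem_range.1 hk) (fun h => hkK (Finset.mem_coe.1 h)))

/-- A form nonnegative on the images of the support of a positive root is nonnegative on its image. -/
theorem sign_supp (hR : RootTable D len) (φ : (Fin D.rank → ℤ) →+ ℤ) (v : List (Fin D.rank)) {s : ℕ}
    (hs : D.IsPosRoot s)
    (h : ∀ i : Fin D.rank, vec D len s i ≠ 0 → 0 ≤ φ (vec D len (act D v (D.simple i)))) :
    0 ≤ φ (vec D len (act D v s)) ∧ (φ (vec D len (act D v s)) = 0 →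
      ∀ i : Fin D.rank, vec D len s i ≠ 0 → φ (vec D len (act D v (D.simple i))) = 0) := by
  suffices key : ∀ (n : ℕ) s, D.IsPosRoot s → (ht D len s).toNat ≤ n →
      (∀ i : Fin D.rank, vec D len s i ≠ 0 → 0 ≤ φ (vec D len (act D v (D.simple i)))) →
      0 ≤ φ (vec D len (act D v s)) ∧ (φ (vec D len (act D v s)) = 0 →
        ∀ i : Fin D.rank, vec D len s i ≠ 0 → φ (vec D len (act D v (D.simple i))) = 0) from
    key _ s hs le_rfl h
  intro n
  induction n with
  | zero =>
    intro s hs hn
    have := (hR.pos_iff_ht hs.1).1 hs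
    omega
  | succ n ih =>
    intro s hs hn h
    obtain ⟨i, hi, hc⟩ := hR.descent s hs.1 hs
    have hp := hR.simple_lt i hi
    have hl : (0 : ℤ) < len (D.simple i) := Nat.cast_pos.2 (hR.len_pos hp)
    by_cases e : s = D.simple i
    · subst e
      have hsupp : ∀ j : Fin D.rank, vec D len (D.simple i) j ≠ 0 → j = ⟨i, hi⟩ := fun j hj => by
        by_contra hne
        rw [show D.simple i = D.simple (⟨i, hi⟩ : Fin D.rank) from rfl, hR.vec_simple, Pi.single_apply,
          if_neg hne] at hj
        exact hj rfl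
      refine ⟨h ⟨i, hi⟩ ?_, fun h0 j hj => ?_⟩
      · rw [show D.simple i = D.simple (⟨i, hi⟩ : Fin D.rank) from rfl, hR.vec_simple, Pi.single_eq_same]
        exact hl.ne'
      · rw [hsupp j hj]
        exact h0
    · have hpos : D.IsPosRoot (D.reflectRoot i s) := hR.reflect_pos ⟨i, hi⟩ hs e
      have hlt := hR.ht_reflect_lt hi hs.1 hc
      have hge := (hR.pos_iff_ht hpos.1).1 hpos
      have hv : vec D len s =
          (1 : ℤ) • vec D len (D.reflectRoot i s) + D.cartan i s • vec D len (D.simple i) := by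
        rw [hR.vec_reflect i hi s hs.1, one_smul, sub_add_cancel]
      have hco : ∀ j : Fin D.rank, vec D len s j = vec D len (D.reflectRoot i s) j +
          D.cartan i s * (Pi.single (⟨i, hi⟩ : Fin D.rank) (len (D.simple i) : ℤ) : Fin D.rank → ℤ) j := by
        intro j
        have e1 := congrFun hv j
        simp only [Pi.add_apply, Pi.smul_apply, one_smul, smul_eq_mul] at e1
        rw [e1]
        congr 2
        exact congrFun (hR.vec_simple ⟨i, hi⟩) j
      have hnn := (hR.isPosRoot_iff _ hpos.1).1 hpos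
      have hsub : ∀ j : Fin D.rank, vec D len (D.reflectRoot i s) j ≠ 0 → vec D len s j ≠ 0 := fun j hj => by
        rw [hco j, Pi.single_apply]
        split_ifs
        · have := hnn j
          nlinarith [mul_pos hc hl]
        · simpa using hj
      have hii : vec D len s ⟨i, hi⟩ ≠ 0 := by
        rw [hco, Pi.single_eq_same]
        have := hnn ⟨i, hi⟩
        nlinarith [mul_pos hc hl]
      obtain ⟨h1, h2⟩ := ih _ hpos (by omega) fun j hj => h j (hsub j hj)
      have h3 := h ⟨i, hi⟩ hii
      have e2 := congrArg φ (hR.act_lin v hpos.1 hp hs.1 hv)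
      simp only [map_add, map_zsmul, smul_eq_mul, one_mul] at e2
      refine ⟨by rw [e2]; exact add_nonneg h1 (mul_nonneg hc.le h3), fun h0 j hj => ?_⟩
      rw [e2] at h0
      have h5 := mul_nonneg hc.le h3
      have h6 : φ (vec D len (act D v (D.reflectRoot i s))) = 0 := by linarith
      by_cases hji : j = ⟨i, hi⟩
      · subst hji
        have h7 : D.cartan i s * φ (vec D len (act D v (D.simple i))) = 0 := by linarith
        exact (mul_eq_zero.1 h7).resolve_left hc.ne'
      · refine h2 h6 j ?_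
        rw [hco j, Pi.single_apply, if_neg hji] at hj
        simpa using hj

/-- `d` keeps the positive roots of `Φ_J` positive and makes all others negative. -/
def IsTop (D : ChevalleyDatum) (J : List ℕ) (d : List (Fin D.rank)) : Prop :=
  MinR D J d ∧ ∀ r, D.IsPosRoot r → ¬ D.InRootSub {k | k ∈ J} r → D.IsNegRoot (act D d r)

theorem pos_of_minR (hR : RootTable D len) {J : List ℕ} {d : List (Fin D.rank)} (hd : MinR D J d) {r : ℕ}
    (hr : D.IsPosRoot r) (hJ : D.InRootSub {k | k ∈ J} r) : D.IsPosRoot (act D d r) := by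
  have h := hR.pos_of_simple_pos {k | k ∈ J} (u := d.reverse.reverse)
    (fun i hi => by rw [List.reverse_reverse]; exact hd i hi) (r := r) ⟨hr, hJ⟩
  rwa [List.reverse_reverse] at h

theorem isTop_iff (hR : RootTable D len) (J : List ℕ) {f : Fin D.nroots → Fin D.nroots} :
    (MinR D J (wRep hR f) ∧ supJ hR J f = ascL hR f) ↔ IsTop D J (wRep hR f) := by
  classical
  set d := wRep hR f
  set φ := outJ D {k : ℕ | k ∈ J}
  have hin : ∀ {r : ℕ}, r < D.nroots → (D.InRootSub {k | k ∈ J} r ↔ φ (vec D len r) = 0) :=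
    fun hr => hR.inRootSub_iff _ hr
  have hnonpos : ∀ r, D.IsNegRoot r → φ (vec D len r) ≤ 0 := fun r hn => by
    have h1 : 0 ≤ φ (vec D len (D.neg r)) := hR.outJ_nonneg _ ((hR.pos_neg_iff hn.1).2 hn)
    rw [hR.deg_neg _ hn.1] at h1
    omega
  have hj0 : ∀ j : Fin D.rank, j.val ∈ J → φ (vec D len (D.simple j)) = 0 := fun j hj =>
    (hR.outJ_simple _ j).1 hj
  have hback : ∀ j : Fin D.rank, act D d.reverse (act D d (D.simple j)) = D.simple j := fun j =>
    hR.act_reverse_act d (hR.simple_lt j j.2)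
  constructor
  · rintro ⟨hmin, he⟩
    refine ⟨hmin, fun r hr hrJ => (hR.sign _ (hR.act_lt d hr.1)).resolve_left fun hp => ?_⟩
    have hall : ∀ k : Fin D.rank, φ (vec D len (act D d.reverse (D.simple k))) ≤ 0 := by
      intro k
      rcases hR.sign _ (hR.act_lt d.reverse (hR.simple_lt k k.2)) with hk | hk
      · obtain ⟨j, hj, hjk⟩ := (mem_supJ hR J k).1 (he ▸ (mem_ascL hR k).2 hk)
        have hsp := hmin j hj
        obtain ⟨-, h2⟩ := sign_supp hR φ d.reverse hsp fun i hi => hR.outJ_nonneg _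
          ((mem_ascL hR i).1 (he ▸ (mem_supJ hR J i).2 ⟨j, hj, hi⟩))
        exact (h2 (by rw [hback j]; exact hj0 j hj) k hjk).le
      · exact hnonpos _ hk
    obtain ⟨h1, -⟩ := sign_supp hR (-φ) d.reverse hp fun i _ => by
      rw [AddMonoidHom.neg_apply]
      exact neg_nonneg.2 (hall i)
    rw [AddMonoidHom.neg_apply, hR.act_reverse_act d hr.1, neg_nonneg] at h1
    exact hrJ ((hin hr.1).2 (le_antisymm h1 (hR.outJ_nonneg _ hr)))
  · rintro ⟨hmin, htop⟩
    have hnegasc : ∀ k : Fin D.rank, φ (vec D len (act D d.reverse (D.simple k))) ≤ 0 := by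
      intro k
      have hlt := hR.act_lt d.reverse (hR.simple_lt k k.2)
      rcases hR.sign _ hlt with hk | hk
      · refine le_of_eq ((hin hlt).1 (by_contra fun hJ => ?_))
        have := htop _ hk hJ
        rw [hR.act_act_reverse d (hR.simple_lt k k.2)] at this
        exact hR.not_pos_and_neg (hR.simple_pos k) this
      · exact hnonpos _ hk
    refine ⟨hmin, Finset.ext fun k => ⟨fun hk => ?_, fun hk => ?_⟩⟩
    · obtain ⟨k, rfl⟩ : ∃ k' : Fin D.rank, k = k'.val :=
        ⟨⟨k, Finset.mem_range.1 (Finset.filter_subset _ _ hk)⟩, rfl⟩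
      obtain ⟨j, hj, hjk⟩ := (mem_supJ hR J k).1 hk
      obtain ⟨-, h2⟩ := sign_supp hR (-φ) d.reverse (hmin j hj) fun i _ => by
        rw [AddMonoidHom.neg_apply]
        exact neg_nonneg.2 (hnegasc i)
      have h3 := h2 (by rw [AddMonoidHom.neg_apply, hback j, hj0 j hj, neg_zero]) k hjk
      rw [AddMonoidHom.neg_apply, neg_eq_zero] at h3
      have hlt := hR.act_lt d.reverse (hR.simple_lt k k.2)
      refine (mem_ascL hR k).2 ((hR.sign _ hlt).resolve_right fun hn => ?_)
      have h4 := pos_of_minR hR hmin ((hR.pos_neg_iff hlt).2 hn)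
        ((hin (hR.neg_lt _ hlt)).2 (by rw [hR.deg_neg _ hlt, h3, neg_zero]))
      rw [hR.act_neg _ hlt, hR.act_act_reverse d (hR.simple_lt k k.2)] at h4
      exact hR.not_pos_and_neg (hR.simple_pos k) ((hR.pos_neg_iff (hR.simple_lt k k.2)).1 h4)
    · obtain ⟨k, rfl⟩ : ∃ k' : Fin D.rank, k = k'.val :=
        ⟨⟨k, Finset.mem_range.1 (ascL_subset hR f hk)⟩, rfl⟩
      have hp := (mem_ascL hR k).1 hk
      set r := act D d.reverse (D.simple k)
      have hrJ : D.InRootSub {k | k ∈ J} r := by_contra fun hJ => by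
        have := htop _ hp hJ
        rw [hR.act_act_reverse d (hR.simple_lt k k.2)] at this
        exact hR.not_pos_and_neg (hR.simple_pos k) this
      by_contra hno
      have hzero : ∀ i : Fin D.rank, vec D len r i ≠ 0 →
          vec D len (act D d (D.simple i)) k = 0 := fun i hi => by
        by_contra h0
        refine hno ((mem_supJ hR J k).2 ⟨i, by_contra fun hiJ => hi ?_, h0⟩)
        simp [vec, hrJ.2 i i.2 hiJ, -Array.getD_eq_getD_getElem?]
      let ev : (Fin D.rank → ℤ) →+ ℤ := Pi.evalAddMonoidHom (fun _ : Fin D.rank => ℤ) k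
      obtain ⟨h1, -⟩ := sign_supp hR (-ev) d hp fun i hi => by
        rw [AddMonoidHom.neg_apply]
        simpa [ev] using (hzero i hi).le
      rw [AddMonoidHom.neg_apply, hR.act_act_reverse d (hR.simple_lt k k.2)] at h1
      simp only [ev, Pi.evalAddMonoidHom_apply, hR.vec_simple, Pi.single_eq_same, neg_nonneg] at h1
      have := hR.len_pos (hR.simple_lt k k.2)
      omega

theorem exists_isTop (hR : RootTable D len) (J : List ℕ) : ∃ d, IsTop D J d := by
  obtain ⟨u, hu, hun, hur⟩ := hR.exists_longest_sub {k : ℕ | k ∈ J}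
  obtain ⟨u₀, -, hun₀, -⟩ := hR.exists_longest_sub ((Finset.range D.rank : Finset ℕ) : Set ℕ)
  have hall : ∀ r, D.IsPosRoot r → D.IsNegRoot (act D u₀ r) := fun r hr =>
    hun₀ r ⟨hr, hr.1, fun i hi hiJ => absurd (Finset.mem_coe.2 (Finset.mem_range.2 hi)) hiJ⟩
  refine ⟨u₀ ++ u.reverse, fun j hj => ?_, fun r hr hrJ => ?_⟩
  · have hp := hR.simple_lt j j.2
    have hin : D.InRootSub {k | k ∈ J} (D.simple j) :=
      (hR.inRootSub_iff _ hp).2 ((hR.outJ_simple _ j).1 hj)
    have h1 := hur _ ⟨hR.simple_pos j, hin⟩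
    have hlt := hR.act_lt u.reverse hp
    have h2 := hall _ ((hR.pos_neg_iff hlt).2 h1)
    rw [hR.act_neg _ hlt] at h2
    rw [act_append]
    exact (hR.neg_neg_iff (hR.act_lt _ hlt)).1 h2
  · rw [act_append]
    exact hall _ (hR.act_pos_of_outside (RootTable.letters_reverse hu) hr hrJ)

theorem isTop_unique {F : Type*} [Field F] (hS : Rules D F) (hR : RootTable D len) {J : List ℕ}
    {d e : List (Fin D.rank)} (hd : IsTop D J d) (he : IsTop D J e) : SameAct D d e := by
  obtain ⟨u, hu, hun, -⟩ := hR.exists_longest_sub {k : ℕ | k ∈ J}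
  have key : ∀ d, IsTop D J d → ∀ j : Fin D.rank, D.IsNegRoot (act D (d ++ u) (D.simple j)) := by
    intro d hd j
    have hp := hR.simple_lt j j.2
    rw [act_append]
    by_cases hj : j.val ∈ J
    · have hin : D.InRootSub {k | k ∈ J} (D.simple j) :=
        (hR.inRootSub_iff _ hp).2 ((hR.outJ_simple _ j).1 hj)
      have hn := hun _ ⟨hR.simple_pos j, hin⟩
      have h1 := pos_of_minR hR hd.1 ((hR.pos_neg_iff hn.1).2 hn)
        ((hR.inRootSub_iff _ (hR.neg_lt _ hn.1)).2 (by
          rw [hR.deg_neg _ hn.1, hR.outJ_act hu hp, (hR.outJ_simple _ j).1 hj, neg_zero]))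
      rw [hR.act_neg _ hn.1] at h1
      exact (hR.pos_neg_iff (hR.act_lt _ hn.1)).1 h1
    · have hnin : ¬ D.InRootSub {k | k ∈ J} (D.simple j) := fun h =>
        absurd ((hR.inRootSub_iff _ hp).1 h) (ne_of_gt ((hR.outJ_simple _ j).2 hj))
      refine hd.2 _ (hR.act_pos_of_outside hu (hR.simple_pos j) hnin) fun h => hnin ?_
      exact (hR.inRootSub_act hu hp).1 h
  have h := longest_unique hS hR (key d hd) (key e he)
  intro r hr
  have h1 := h _ (hR.act_lt u.reverse hr)
  rwa [act_append, act_append, hR.act_act_reverse u hr] at h1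

/-- The alternating sum over an interval of subsets. -/
theorem sum_interval {A M : Finset ℕ} {R : Finset ℕ} (hA : A ⊆ R) :
    ∑ K ∈ R.powerset.filter (fun K => K ⊆ A ∧ M ⊆ K), (-1 : ℤ) ^ K.card =
      if M = A then (-1 : ℤ) ^ M.card else 0 := by
  classical
  by_cases hM : M ⊆ A
  · have e : R.powerset.filter (fun K => K ⊆ A ∧ M ⊆ K) = (A \ M).powerset.image (M ∪ ·) := by
      ext K
      simp only [Finset.mem_filter, Finset.mem_powerset, Finset.mem_image]
      constructor
      · rintro ⟨-, h1, h2⟩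
        exact ⟨K \ M, fun x hx => Finset.mem_sdiff.2 ⟨h1 (Finset.mem_sdiff.1 hx).1, (Finset.mem_sdiff.1 hx).2⟩,
          Finset.union_sdiff_of_subset h2⟩
      · rintro ⟨L, hL, rfl⟩
        have hsub : M ∪ L ⊆ A := Finset.union_subset hM (hL.trans Finset.sdiff_subset)
        exact ⟨hsub.trans hA, hsub, Finset.subset_union_left⟩
    have hd : ∀ L ∈ (A \ M).powerset, Disjoint M L := fun L hL =>
      Finset.disjoint_left.2 fun x hx hxL => (Finset.mem_sdiff.1 (Finset.mem_powerset.1 hL hxL)).2 hx
    rw [e, Finset.sum_image fun L hL L' hL' h => by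
      have := congrArg (· \ M) h
      simpa [Finset.union_sdiff_left, Finset.sdiff_eq_self_of_disjoint (hd L hL).symm,
        Finset.sdiff_eq_self_of_disjoint (hd L' hL').symm] using this,
      Finset.sum_congr rfl fun L hL => by rw [Finset.card_union_of_disjoint (hd L hL), pow_add],
      ← Finset.mul_sum, Finset.sum_powerset_neg_one_pow_card]
    by_cases hMA : M = A
    · simp [hMA]
    · rw [if_neg hMA, if_neg fun h => hMA (hM.antisymm (Finset.sdiff_eq_empty_iff_subset.1 h)), mul_zero]
  · rw [if_neg (fun h : M = A => hM (h ▸ Finset.Subset.refl _)), Finset.sum_eq_zero]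
    intro K hK
    obtain ⟨-, h1, h2⟩ := Finset.mem_filter.1 hK
    exact absurd (h2.trans h1) hM

/-- The double cosets kept by `K`. -/
noncomputable def goodSet (hR : RootTable D len) (J : List ℕ) (K : Finset ℕ) :
    Finset (Fin D.nroots → Fin D.nroots) := by
  classical
  exact (wAll hR).filter fun f => MinR D J (wRep hR f) ∧ K ⊆ ascL hR f ∧ supJ hR J f ⊆ K

/-- Only the longest minimal element survives. -/
theorem sum_goodSet {F : Type*} [Field F] (hS : Rules D F) (hR : RootTable D len) (J : List ℕ) :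
    ∃ n : ℕ, (∑ K ∈ (Finset.range D.rank).powerset, (-1 : ℤ) ^ K.card * (goodSet hR J K).card) = (-1) ^ n ∧
      ((∀ k < D.rank, k ∉ J) → n = 0) := by
  classical
  obtain ⟨d, hd⟩ := exists_isTop hR J
  have h0 : IsTop D J (wRep hR (hR.actF d)) := by
    have e := sameAct_wRep hR d
    exact ⟨e.symm.minR hR hd.1, fun r hr hrJ => by rw [e r hr.1]; exact hd.2 r hr hrJ⟩
  refine ⟨(supJ hR J (hR.actF d)).card, ?_, fun hJ => ?_⟩
  · have h1 : ∀ K ∈ (Finset.range D.rank).powerset, (-1 : ℤ) ^ K.card * (goodSet hR J K).card =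
        ∑ f ∈ wAll hR, if MinR D J (wRep hR f) ∧ K ⊆ ascL hR f ∧ supJ hR J f ⊆ K then (-1 : ℤ) ^ K.card else 0 := by
      intro K _
      rw [← Finset.sum_filter, Finset.sum_const, goodSet, nsmul_eq_mul, mul_comm]
    have hfilt : ∀ f, MinR D J (wRep hR f) → (Finset.range D.rank).powerset.filter
        (fun K => MinR D J (wRep hR f) ∧ K ⊆ ascL hR f ∧ supJ hR J f ⊆ K) =
          (Finset.range D.rank).powerset.filter (fun K => K ⊆ ascL hR f ∧ supJ hR J f ⊆ K) :=
      fun f hf => Finset.filter_congr fun K _ => and_iff_right hf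
    rw [Finset.sum_congr rfl h1, Finset.sum_comm,
      Finset.sum_eq_single_of_mem (hR.actF d) (actF_mem_wAll hR d) fun f hf hne => ?_]
    · rw [← Finset.sum_filter]
      obtain ⟨hmin, he⟩ := (isTop_iff hR J).2 h0
      rw [hfilt _ hmin, sum_interval (ascL_subset hR _), if_pos he]
    · by_cases hmin : MinR D J (wRep hR f)
      · rw [← Finset.sum_filter, hfilt _ hmin,
          sum_interval (ascL_subset hR _), if_neg fun he => hne ?_]
        exact eq_of_sameAct hR hf (actF_mem_wAll hR d)
          (isTop_unique hS hR ((isTop_iff hR J).1 ⟨hmin, he⟩) h0)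
      · exact Finset.sum_eq_zero fun K _ => if_neg fun h => hmin h.1
  · refine Finset.card_eq_zero.2 (Finset.eq_empty_of_forall_notMem fun k hk => ?_)
    obtain ⟨-, j, hj, -⟩ := Finset.mem_filter.1 hk
    exact hJ j j.2 hj

end Cfsg.Agent.ChevGrp.Stein
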