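import Cfsg.Agent.ChevGrp.Stein.Char

/-!
The Steinberg character on `B` is the permutation character on the cosets of `H` (owner: helper32).
-/

set_option autoImplicit false
set_option linter.unusedSectionVars false

namespace Cfsg.Agent.ChevGrp.Stein

open Cfsg.Lie Cfsg.Agent.ChevSteinberg
open scoped MatrixGroups

variable {D : ChevalleyDatum} {F : Type*} [Field F] [Fintype F] {len : ℕ → ℕ}

theorem pow_eq_one_gS (hS : Rules D F) (hR : RootTable D len) {h : ↥(D.group F)}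
    (hh : h ∈ (gS hS).Hbar) : h ^ (Nat.card F - 1) = 1 := by
  refine Subtype.ext ?_
  have h2 : (h : GL D.Idx F) ∈ (glSys hS).Hbar := (map_Hbar hS).le ⟨h, hh, rfl⟩
  rw [SubgroupClass.coe_pow, pow_eq_one_of_mem_Hbar hS hR h2, OneMemClass.coe_one]

theorem not_dvd_order_gS (hS : Rules D F) (hR : RootTable D len) (p : ℕ) [hp : Fact p.Prime] [CharP F p]
    {h : ↥(D.group F)} (hh : h ∈ (gS hS).Hbar) : ¬ p ∣ orderOf h := by
  intro hd
  have h1 : p ∣ Nat.card F - 1 := hd.trans (orderOf_dvd_of_pow_eq_one (pow_eq_one_gS hS hR hh))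
  obtain ⟨n, -, hn⟩ := FiniteField.card F p
  rw [Nat.card_eq_fintype_card, hn] at h1
  have h2 : p ∣ p ^ (n : ℕ) := dvd_pow_self p n.pos.ne'
  have h3 : 1 ≤ p ^ (n : ℕ) := Nat.one_le_pow _ _ hp.out.pos
  have := Nat.dvd_sub h2 h1
  rw [show p ^ (n : ℕ) - (p ^ (n : ℕ) - 1) = 1 by omega] at this
  exact hp.out.one_lt.ne' (Nat.dvd_one.1 this)

theorem fixed_borel (hS : Rules D F) (hR : RootTable D len) (p : ℕ) [hp : Fact p.Prime] [CharP F p]
    (b : (gS hS).Bbar) :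
    (stZ (gS hS) (b : ↥(D.group F))) =
      (Nat.card (MulAction.fixedBy ((gS hS).Bbar ⧸ ((gS hS).Hbar).subgroupOf (gS hS).Bbar) b) : ℤ) := by
  classical
  by_cases hpb : p ∣ orderOf (b : ↥(D.group F))
  · rw [stZ_vanish hS hR p hpb]
    have h0 : IsEmpty (MulAction.fixedBy ((gS hS).Bbar ⧸ (gS hS).Hbar.subgroupOf (gS hS).Bbar) b) := by
      refine ⟨fun ⟨c, hc⟩ => ?_⟩
      induction c using QuotientGroup.induction_on with
      | H x =>
        rw [MulAction.mem_fixedBy, MulAction.Quotient.smul_mk, smul_eq_mul, eq_comm, QuotientGroup.eq,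
          Subgroup.mem_subgroupOf] at hc
        refine not_dvd_order_gS hS hR p hc ?_
        have e : ((x⁻¹ * (b * x) : (gS hS).Bbar) : ↥(D.group F)) =
            MulAut.conj ((x : ↥(D.group F))⁻¹) (b : ↥(D.group F)) := by simp [mul_assoc]
        rwa [e, (MulAut.conj ((x : ↥(D.group F))⁻¹)).orderOf_eq]
    rw [Nat.card_of_isEmpty, Nat.cast_zero]
  obtain ⟨u, hu, h, hh, hb⟩ := ((gS hS).mem_Bbar hS hR).1 b.2
  have hph := not_dvd_order_gS hS hR p hh
  have hUp := isPGroup_gS hS hR p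
  -- the value
  have hPL : (b : ↥(D.group F)) ∈ PL (gS hS) [] := Bbar_le_PL (gS hS) [] b.2
  have hUJ : (gS hS).UJ {k | k ∈ ([] : List ℕ)} = (gS hS).Ubar := by
    refine le_antisymm ((gS hS).US_mono fun r h => h.1) ((gS hS).US_mono fun r hr => ⟨hr, fun hJ => ?_⟩)
    refine hR.vec_ne_zero r hr.1 (funext fun i => ?_)
    simp [vec, hJ.2 i i.2 (by simp), -Array.getD_eq_getD_getElem?]
  obtain ⟨n, hn, hn0⟩ := stZ_elliptic hS hR p hPL (fun x _ j hj => absurd hj (by simp)) hpb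
  rw [hn0 fun k _ => List.not_mem_nil, pow_zero, one_mul, hUJ] at hn
  rw [hn, Nat.cast_inj]
  -- `b` is conjugate to `h` under `U`
  obtain ⟨a, ha⟩ := IsPGroup.iff_card.1 hUp
  obtain ⟨y, hy, c, hc, hch, e⟩ := OddChar.exists_conj_centralizer_coset (gS hS).Ubar h
    ((gS hS).Hbar_le_normalizer_Ubar hS hR hh) (by rw [ha]; exact ((hp.out.coprime_iff_not_dvd.2 hph).pow_left a).symm) u hu
  rw [← hb] at e
  have hc1 : c = 1 := by
    by_contra h1
    refine hpb ?_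
    have := dvd_orderOf_mul hUp hc h1 hch hph
    rwa [← e, ← MulAut.conj_apply, (MulAut.conj y).orderOf_eq] at this
  rw [hc1, one_mul] at e
  have hyB : ∀ z ∈ (gS hS).Ubar, z ∈ (gS hS).Bbar := fun z hz => (gS hS).Ubar_le_Bbar hz
  let φ : ↥((gS hS).Ubar ⊓ Subgroup.centralizer ({(b : ↥(D.group F))} : Set ↥(D.group F))) →
      MulAction.fixedBy ((gS hS).Bbar ⧸ (gS hS).Hbar.subgroupOf (gS hS).Bbar) b := fun z =>
    ⟨QuotientGroup.mk ⟨z.1 * y⁻¹, hyB _ ((gS hS).Ubar.mul_mem (Subgroup.mem_inf.1 z.2).1 ((gS hS).Ubar.inv_mem hy))⟩, by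
      have hzb := Subgroup.mem_centralizer_singleton_iff.1 (Subgroup.mem_inf.1 z.2).2
      rw [MulAction.mem_fixedBy, MulAction.Quotient.smul_mk, smul_eq_mul, eq_comm, QuotientGroup.eq,
        Subgroup.mem_subgroupOf]
      have e2 : ((z.1 : ↥(D.group F)) * y⁻¹)⁻¹ * ((b : ↥(D.group F)) * (z.1 * y⁻¹)) = h := by
        calc ((z.1 : ↥(D.group F)) * y⁻¹)⁻¹ * ((b : ↥(D.group F)) * (z.1 * y⁻¹))
            = y * (z.1 : ↥(D.group F))⁻¹ * ((b : ↥(D.group F)) * z.1) * y⁻¹ := by simp [mul_assoc]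
          _ = y * (b : ↥(D.group F)) * y⁻¹ := by rw [← hzb]; simp [mul_assoc]
          _ = h := e
      simpa [Subgroup.coe_mul, Subgroup.coe_inv] using e2.symm ▸ hh⟩
  refine Nat.card_congr (Equiv.ofBijective φ ⟨?_, ?_⟩)
  · intro z w ezw
    have h1 := QuotientGroup.eq.1 (congrArg Subtype.val ezw)
    simp only [Subgroup.mem_subgroupOf, Subgroup.coe_mul, Subgroup.coe_inv] at h1
    have hmem : ((z.1 : ↥(D.group F)) * y⁻¹)⁻¹ * (w.1 * y⁻¹) ∈ (gS hS).Ubar :=
      (gS hS).Ubar.mul_mem ((gS hS).Ubar.inv_mem ((gS hS).Ubar.mul_mem (Subgroup.mem_inf.1 z.2).1 ((gS hS).Ubar.inv_mem hy)))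
        ((gS hS).Ubar.mul_mem (Subgroup.mem_inf.1 w.2).1 ((gS hS).Ubar.inv_mem hy))
    have h2 := ((gS hS).Bbar_decomp_unique hS hR hmem (one_mem _) (one_mem _) h1 (by simp)).1
    exact Subtype.ext (mul_right_cancel (inv_mul_eq_one.1 h2))
  · rintro ⟨d, hd⟩
    induction d using QuotientGroup.induction_on with
    | H x =>
      rw [MulAction.mem_fixedBy, MulAction.Quotient.smul_mk, smul_eq_mul, eq_comm, QuotientGroup.eq,
        Subgroup.mem_subgroupOf] at hd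
      obtain ⟨v, hv, k, hk, hx⟩ := ((gS hS).mem_Bbar hS hR).1 x.2
      simp only [Subgroup.coe_mul, Subgroup.coe_inv, hx] at hd
      have hkv : v⁻¹ * (b : ↥(D.group F)) * v ∈ (gS hS).Hbar := by
        have := (gS hS).Hbar.mul_mem ((gS hS).Hbar.mul_mem hk hd) ((gS hS).Hbar.inv_mem hk)
        simpa [mul_assoc] using this
      have hvh : v⁻¹ * (b : ↥(D.group F)) * v = h := by
        have hu' : v⁻¹ * u * (h * v * h⁻¹) ∈ (gS hS).Ubar := (gS hS).Ubar.mul_mem ((gS hS).Ubar.mul_mem ((gS hS).Ubar.inv_mem hv) hu)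
          ((Subgroup.mem_normalizer_iff.1 ((gS hS).Hbar_le_normalizer_Ubar hS hR hh) v).1 hv)
        refine (((gS hS).Bbar_decomp_unique hS hR hu' (one_mem _) hh hkv (by rw [hb]; simp [mul_assoc])).2).symm
      refine ⟨⟨v * y, Subgroup.mem_inf.2 ⟨(gS hS).Ubar.mul_mem hv hy, ?_⟩⟩, Subtype.ext (QuotientGroup.eq.2 ?_)⟩
      · refine Subgroup.mem_centralizer_singleton_iff.2 ?_
        have e3 : y * (b : ↥(D.group F)) * y⁻¹ = v⁻¹ * b * v := e.trans hvh.symm
        calc v * y * (b : ↥(D.group F)) = v * (y * b * y⁻¹) * y := by simp [mul_assoc]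
          _ = (b : ↥(D.group F)) * (v * y) := by rw [e3]; simp [mul_assoc]
      · simp only [Subgroup.mem_subgroupOf, Subgroup.coe_mul, Subgroup.coe_inv, hx]
        simpa [mul_assoc] using hk

end Cfsg.Agent.ChevGrp.Stein
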